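import Mathlib
import Cfsg.Prelude.Def_GeometricClasses
import Cfsg.Agent.Lib.Helper71.Asch0

/-!
# S5630 piece UFU (helper89, for helper71): an absolutely irreducible normal subgroup fixing a
non-degenerate unitary form; the normalizing group lies in the similarity group of the form
-/

set_option autoImplicit false

namespace Cfsg.Agent.Lib.Helper89.ASUFU

open Matrix Cfsg.Geo Cfsg.Agent.Lib.Helper71.Asch
open scoped Kronecker

variable {n : ℕ} {F : Type*} [Field F] [Fintype F]

/-- the sesquilinear form of a matrix -/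
def sesq (σ : F ≃+* F) (M : Matrix (Fin n) (Fin n) F) (u v : Fin n → F) : F :=
  u ⬝ᵥ (M *ᵥ (fun j => σ (v j)))

theorem sigma_mulVec (σ : F ≃+* F) (A : Matrix (Fin n) (Fin n) F) (v : Fin n → F) :
    (fun j => σ ((A *ᵥ v) j)) = (A.map σ) *ᵥ (fun j => σ (v j)) := by
  funext j
  simp only [Matrix.mulVec, dotProduct, Matrix.map_apply, map_sum, map_mul]

theorem sesq_mulVec (σ : F ≃+* F) (M A : Matrix (Fin n) (Fin n) F) (u v : Fin n → F) :
    sesq σ M (A *ᵥ u) (A *ᵥ v) = sesq σ (Aᵀ * M * A.map σ) u v := by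
  unfold sesq
  rw [sigma_mulVec, ← Matrix.mulVec_mulVec, ← Matrix.mulVec_mulVec, Matrix.mulVec_transpose,
    dotProduct_comm u, ← Matrix.dotProduct_mulVec, dotProduct_comm]

theorem sesq_single (σ : F ≃+* F) (M : Matrix (Fin n) (Fin n) F) (i j : Fin n) :
    sesq σ M (Pi.single i 1) (Pi.single j 1) = M i j := by
  unfold sesq
  have h1 : (fun k => σ ((Pi.single j 1 : Fin n → F) k)) = Pi.single j 1 := by
    funext k
    by_cases hk : k = j
    · subst hk; simp
    · simp [Pi.single_eq_of_ne hk]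
  rw [h1, Matrix.mulVec_single_one, single_one_dotProduct]
  rfl

theorem sesq_inj (σ : F ≃+* F) {M M' : Matrix (Fin n) (Fin n) F}
    (h : ∀ u v, sesq σ M u v = sesq σ M' u v) : M = M' := by
  ext i j
  rw [← sesq_single σ M i j, ← sesq_single σ M' i j]
  exact h _ _

theorem sesq_smul (σ : F ≃+* F) (c : F) (M : Matrix (Fin n) (Fin n) F) (u v : Fin n → F) :
    sesq σ (c • M) u v = c * sesq σ M u v := by
  unfold sesq
  rw [Matrix.smul_mulVec, dotProduct_smul, smul_eq_mul]

/-- a unitary form is the sesquilinear form of its Gram matrix -/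
theorem unitary_eq_sesq (σ : F ≃+* F) (f : (Fin n → F) → (Fin n → F) → F)
    (hf : IsUnitaryForm σ f) (u v : Fin n → F) :
    f u v = sesq σ (Matrix.of fun i j => f (Pi.single i 1) (Pi.single j 1)) u v := by
  -- linearity in the first argument
  have hlin : ∀ (w x : Fin n → F), f x w = ∑ i, x i * f (Pi.single i 1) w := by
    intro w x
    let L : (Fin n → F) →ₗ[F] F :=
      { toFun := fun y => f y w
        map_add' := fun a b => hf.add_left a b w
        map_smul' := fun c a => by
          show f (c • a) w = c • f a w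
          rw [hf.smul_left, smul_eq_mul] }
    have h1 := LinearMap.pi_apply_eq_sum_univ L x
    have h2 : ∀ i : Fin n, (fun j => if i = j then (1 : F) else 0) = Pi.single i 1 := by
      intro i
      funext j
      by_cases hij : i = j
      · subst hij; simp
      · rw [if_neg hij, Pi.single_eq_of_ne (Ne.symm hij)]
    simp only [h2, smul_eq_mul] at h1
    exact h1
  unfold sesq
  rw [hlin v u]
  simp only [dotProduct, Matrix.mulVec, Matrix.of_apply]
  apply Finset.sum_congr rfl
  intro i _
  congr 1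
  -- semilinearity in the second argument
  rw [hf.herm, hlin (Pi.single i 1) v, map_sum]
  apply Finset.sum_congr rfl
  intro j _
  rw [map_mul, ← hf.herm, mul_comm]

/-- UFU: an absolutely irreducible normal subgroup fixing a unitary form. -/
theorem UFU (hn : 3 ≤ n) (H L : Subgroup (GL (Fin n) F)) (hN : Nrm H L)
    (hLa : ActsAbsolutelyIrreducibly (matrixSet L)) (σ : F ≃+* F)
    (f : (Fin n → F) → (Fin n → F) → F)
    (hf : IsUnitaryForm σ f) (hfix : FixesForm (matrixSet L) f) : InCls H := by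
  refine ⟨similarityGroup f, ?_, ?_⟩
  · right; right; right; right; right; right; right; right; right; right; left
    exact ⟨σ, f, hf, hn, rfl⟩
  obtain ⟨S, hS⟩ : ∃ S : Matrix (Fin n) (Fin n) F, ∀ u v, f u v = sesq σ S u v :=
    ⟨_, unitary_eq_sesq σ f hf⟩
  have hσσ : ∀ M : Matrix (Fin n) (Fin n) F, (M.map σ).map σ = M := by
    intro M
    ext i j
    simp [hf.involutive]
  -- the Gram matrix is invertible
  have hSu : IsUnit S := by
    rw [← Matrix.mulVec_injective_iff_isUnit]
    have hinj : Function.Injective (Matrix.mulVecLin S) := by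
      rw [injective_iff_map_eq_zero (Matrix.mulVecLin S)]
      intro w hw
      by_contra hw0
      have hw' : S *ᵥ w = 0 := hw
      have hv0 : (fun j => σ (w j)) ≠ 0 := by
        intro h0
        apply hw0
        funext j
        have := congrFun h0 j
        simpa using this
      obtain ⟨⟨x, hx⟩, -⟩ := hf.nondegenerate _ hv0
      apply hx
      rw [hS]
      unfold sesq
      have h1 : (fun j => σ ((fun j => σ (w j)) j)) = w := by
        funext j
        exact hf.involutive (w j)
      rw [h1, hw', dotProduct_zero]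
    exact hinj
  obtain ⟨Su, hSu'⟩ := hSu
  have hS1 : S * (Su⁻¹ : (Matrix (Fin n) (Fin n) F)ˣ).1 = 1 := by
    rw [← hSu']; exact Su.mul_inv
  have hS2 : (Su⁻¹ : (Matrix (Fin n) (Fin n) F)ˣ).1 * S = 1 := by
    rw [← hSu']; exact Su.inv_mul
  set S' : Matrix (Fin n) (Fin n) F := (Su⁻¹ : (Matrix (Fin n) (Fin n) F)ˣ).1 with hS'def
  -- the elements of `L` fix the Gram matrix
  have hL : ∀ x ∈ L, (x.1)ᵀ * S * (x.1).map σ = S := by
    intro x hx
    apply sesq_inj σ
    intro u v
    rw [← sesq_mulVec, ← hS, ← hS]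
    exact hfix x.1 ⟨x, hx, rfl⟩ u v
  intro h hh
  set A : Matrix (Fin n) (Fin n) F := h.1 with hA
  set A' : Matrix (Fin n) (Fin n) F := (h⁻¹ : GL (Fin n) F).1 with hA'
  have hAA' : A * A' = 1 := by
    rw [hA, hA']; exact h.mul_inv
  have hA'A : A' * A = 1 := by
    rw [hA, hA']; exact h.inv_mul
  set Sh : Matrix (Fin n) (Fin n) F := Aᵀ * S * A.map σ with hSh
  have hfh : ∀ u v, f (A *ᵥ u) (A *ᵥ v) = sesq σ Sh u v := by
    intro u v
    rw [hS, sesq_mulVec]
  -- the elements of `L` fix `Sh`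
  have hLh : ∀ x ∈ L, (x.1)ᵀ * Sh * (x.1).map σ = Sh := by
    intro x hx
    have hy := hL (h * x * h⁻¹) (hN h hh x hx)
    have e1 : ((h * x * h⁻¹ : GL (Fin n) F)).1 = A * x.1 * A' := rfl
    rw [e1] at hy
    obtain ⟨Y, hY⟩ : ∃ Y : Matrix (Fin n) (Fin n) F, Y = A * x.1 * A' := ⟨_, rfl⟩
    rw [← hY] at hy
    have e2 : Y * A = A * x.1 := by
      rw [hY, Matrix.mul_assoc, hA'A, Matrix.mul_one]
    calc (x.1)ᵀ * Sh * (x.1).map σ
        = (A * x.1)ᵀ * S * (A * x.1).map σ := by
          rw [hSh, Matrix.transpose_mul, Matrix.map_mul]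
          simp only [Matrix.mul_assoc]
      _ = (Y * A)ᵀ * S * (Y * A).map σ := by rw [e2]
      _ = Aᵀ * (Yᵀ * S * Y.map σ) * A.map σ := by
          rw [Matrix.transpose_mul, Matrix.map_mul]
          simp only [Matrix.mul_assoc]
      _ = Sh := by rw [hy]
  set T : Matrix (Fin n) (Fin n) F := S' * Sh with hT
  -- `T` commutes with the `σ`-images of the elements of `L`
  have hTc : ∀ x ∈ L, T * (x.1).map σ = (x.1).map σ * T := by
    intro x hx
    set X : Matrix (Fin n) (Fin n) F := x.1 with hX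
    set X' : Matrix (Fin n) (Fin n) F := (x⁻¹ : GL (Fin n) F).1 with hX'
    have hXX' : X * X' = 1 := by rw [hX, hX']; exact x.mul_inv
    have ht : X'ᵀ * Xᵀ = 1 := by
      rw [← Matrix.transpose_mul, hXX', Matrix.transpose_one]
    have k1 : S * X.map σ = X'ᵀ * S := by
      have := congrArg (fun M => X'ᵀ * M) (hL x hx)
      beta_reduce at this
      rw [← Matrix.mul_assoc, ← Matrix.mul_assoc, ht, Matrix.one_mul] at this
      exact this
    have k2 : Sh * X.map σ = X'ᵀ * Sh := by
      have := congrArg (fun M => X'ᵀ * M) (hLh x hx)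
      beta_reduce at this
      rw [← Matrix.mul_assoc, ← Matrix.mul_assoc, ht, Matrix.one_mul] at this
      exact this
    have k3 : X.map σ * S' = S' * X'ᵀ := by
      calc X.map σ * S' = S' * (S * X.map σ) * S' := by
            rw [← Matrix.mul_assoc, hS2, Matrix.one_mul]
        _ = S' * X'ᵀ * (S * S') := by rw [k1]; simp only [Matrix.mul_assoc]
        _ = S' * X'ᵀ := by rw [hS1, Matrix.mul_one]
    calc T * X.map σ = S' * (Sh * X.map σ) := by rw [hT, Matrix.mul_assoc]
      _ = S' * X'ᵀ * Sh := by rw [k2, Matrix.mul_assoc]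
      _ = X.map σ * T := by rw [← k3, hT, Matrix.mul_assoc]
  -- hence `T` is a scalar
  obtain ⟨c, hc⟩ := hLa.2 (T.map σ) (by
    rintro _ ⟨x, hx, rfl⟩
    have h1 := congrArg (fun M : Matrix (Fin n) (Fin n) F => M.map σ) (hTc x hx)
    simp only [Matrix.map_mul, hσσ] at h1
    exact h1)
  have hTs : T = σ c • (1 : Matrix (Fin n) (Fin n) F) := by
    have h1 := congrArg (fun M : Matrix (Fin n) (Fin n) F => M.map σ) hc
    simp only [hσσ] at h1
    rw [h1]
    ext i j
    by_cases hij : i = j
    · subst hij; simp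
    · simp [Matrix.one_apply_ne hij]
  have hShS : Sh = σ c • S := by
    have h1 : S * T = Sh := by
      rw [hT, ← Matrix.mul_assoc, hS1, Matrix.one_mul]
    rw [← h1, hTs, Matrix.mul_smul, Matrix.mul_one]
  have hc0 : σ c ≠ 0 := by
    intro h0
    have hn0 : 0 < n := by omega
    have hv0 : (Pi.single (⟨0, hn0⟩ : Fin n) (1 : F) : Fin n → F) ≠ 0 := by
      intro h1
      have := congrFun h1 ⟨0, hn0⟩
      simp at this
    obtain ⟨⟨x, hx⟩, -⟩ := hf.nondegenerate _ hv0
    apply hx
    have h1 := hfh (A' *ᵥ x) (A' *ᵥ Pi.single (⟨0, hn0⟩ : Fin n) (1 : F))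
    rw [Matrix.mulVec_mulVec, Matrix.mulVec_mulVec, hAA', Matrix.one_mulVec, Matrix.one_mulVec,
      hShS, h0, zero_smul] at h1
    rw [h1]
    unfold sesq
    rw [Matrix.zero_mulVec, dotProduct_zero]
  refine ⟨Units.mk0 (σ c) hc0, ?_⟩
  intro u v
  show f (A *ᵥ u) (A *ᵥ v) = σ c * f u v
  rw [hfh, hShS, sesq_smul, hS]

end Cfsg.Agent.Lib.Helper89.ASUFU
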