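import Cfsg.Agent.Lib.Helper10.LC0

/-!
# Leech characterisation: job piece LC-B13 (membership of even vectors) for S0406
-/

set_option autoImplicit false

namespace Cfsg.Agent.Lib.Helper89.LCB13

open Matrix Cfsg.Agent.Lib.Helper10.LC

theorem mem_of_even {M : AddSubgroup (Fin 24 → ℤ)} (hM : Good M) (ε : Fin 24 → ℤ)
    (hε : ∀ i, ε i = 1 ∨ ε i = -1)
    (hsum : ∀ y ∈ M, (∀ i, y i % 2 = 0) → (∑ i, ε i * y i) % 8 = 0)
    (hnf : ∀ c ∈ code M, ∃ y ∈ M, ∀ i, (c i = 1 → (y i = 2 ∨ y i = -2)) ∧ (c i = 0 → y i = 0))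
    (h4 : ∀ z : Fin 24 → ℤ, (∑ i, z i) % 2 = 0 → (fun i => 4 * z i) ∈ M)
    (y : Fin 24 → ℤ) (heven : ∀ i, y i % 2 = 0)
    (hc : (fun i => if y i % 4 = 2 then (1 : ZMod 2) else 0) ∈ code M)
    (hs : (∑ i, ε i * y i) % 8 = 0) : y ∈ M := by
  classical
  obtain ⟨yc, hycM, hyc⟩ := hnf _ hc
  have hcase : ∀ i, (y i % 4 = 2 ∧ (yc i = 2 ∨ yc i = -2)) ∨ (y i % 4 = 0 ∧ yc i = 0) := by
    intro i
    by_cases h : y i % 4 = 2
    · left
      refine ⟨h, (hyc i).1 ?_⟩
      simp only [if_pos h]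
    · right
      have h0 : y i % 4 = 0 := by
        have := heven i
        omega
      refine ⟨h0, (hyc i).2 ?_⟩
      simp only [if_neg h]
  have hyceven : ∀ i, yc i % 2 = 0 := by
    intro i
    rcases hcase i with ⟨_, h | h⟩ | ⟨_, h⟩ <;> rw [h] <;> norm_num
  set z : Fin 24 → ℤ := fun i => (y i - yc i) / 4 with hzdef
  have hz : ∀ i, y i - yc i = 4 * z i := by
    intro i
    simp only [hzdef]
    rcases hcase i with ⟨h1, h | h⟩ | ⟨h1, h⟩ <;> rw [h] <;> omega
  set w : Fin 24 → ℤ := fun i => if ε i = 1 then 0 else -z i with hwdef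
  have hw : ∀ i, ε i * z i = z i + 2 * w i := by
    intro i
    simp only [hwdef]
    rcases hε i with h | h
    · rw [h, if_pos rfl]; ring
    · rw [h, if_neg (by norm_num)]; ring
  have hS2 := hsum yc hycM hyceven
  have e1 : ∑ i, ε i * y i - ∑ i, ε i * yc i = 4 * ∑ i, ε i * z i := by
    rw [← Finset.sum_sub_distrib, Finset.mul_sum]
    refine Finset.sum_congr rfl (fun i _ => ?_)
    have := hz i
    linear_combination (ε i) * this
  have e2 : ∑ i, ε i * z i = ∑ i, z i + 2 * ∑ i, w i := by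
    rw [Finset.mul_sum, ← Finset.sum_add_distrib]
    exact Finset.sum_congr rfl (fun i _ => hw i)
  have hzsum : (∑ i, z i) % 2 = 0 := by omega
  have h4z := h4 z hzsum
  have hy : y = yc + (fun i => 4 * z i) := by
    funext i
    have := hz i
    simp only [Pi.add_apply]
    omega
  rw [hy]
  exact M.add_mem hycM h4z

end Cfsg.Agent.Lib.Helper89.LCB13
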