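import Cfsg.Agent.Lib.Helper10.LC0

/-!
# Leech characterisation: job piece LC-B3 (code weights) for S0406
-/

set_option autoImplicit false

namespace Cfsg.Agent.Lib.Helper89.LCB3

open Matrix Cfsg.Agent.Lib.Helper10.LC

theorem zmod2_cases (a : ZMod 2) : a = 0 ∨ a = 1 := by
  fin_cases a
  · left; rfl
  · right; rfl

theorem code_weights {M : AddSubgroup (Fin 24 → ℤ)} (hM : Good M)
    (hnf : ∀ c ∈ code M, ∃ y ∈ M, ∀ i, (c i = 1 → (y i = 2 ∨ y i = -2)) ∧ (c i = 0 → y i = 0))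
    (c : Fin 24 → ZMod 2) (hc : c ∈ code M) : 4 ∣ hammingNorm c ∧ hammingNorm c ≠ 4 := by
  classical
  obtain ⟨y, hyM, hy⟩ := hnf c hc
  have hterm : ∀ i, y i ^ 2 = if c i ≠ 0 then (4 : ℤ) else 0 := by
    intro i
    rcases zmod2_cases (c i) with h0 | h1
    · have := (hy i).2 h0
      rw [this, if_neg (by simp [h0])]
      norm_num
    · have h10 : c i ≠ 0 := by rw [h1]; decide
      rw [if_pos h10]
      rcases (hy i).1 h1 with h | h <;> rw [h] <;> norm_num
  have hsum : ∑ i, y i ^ 2 = 4 * (hammingNorm c : ℤ) := by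
    have h1 : ∑ i, y i ^ 2 = ∑ i, (if c i ≠ 0 then (4 : ℤ) else 0) :=
      Finset.sum_congr rfl (fun i _ => hterm i)
    rw [h1, Finset.sum_ite, Finset.sum_const, Finset.sum_const_zero, add_zero]
    simp only [hammingNorm, nsmul_eq_mul]
    ring
  have h16 := hM.norm16 y hyM
  rw [hsum] at h16
  have h4 : (4 : ℤ) ∣ (hammingNorm c : ℤ) := by
    obtain ⟨k, hk⟩ := h16
    exact ⟨k, by omega⟩
  refine ⟨by exact_mod_cast h4, ?_⟩
  intro hw
  have hy0 : y ≠ 0 := by
    intro h0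
    rw [h0] at hsum
    simp only [Pi.zero_apply] at hsum
    rw [hw] at hsum
    norm_num at hsum
  have h32 := hM.norm32 y hyM hy0
  rw [hsum, hw] at h32
  norm_num at h32

end Cfsg.Agent.Lib.Helper89.LCB3
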