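import Cfsg.Agent.Lib.Helper98.T73Defs
import Cfsg.Agent.Lib.Helper43.OqSDMULT
import Cfsg.Agent.Lib.Helper82.QuadSELFDUAL

/-!
Project T73 (S5973, helper98), piece CHARP (helper89): the characteristic polynomial of an
isometry of odd prime order `r ≠ p` of a nondegenerate quadratic space.
-/

set_option autoImplicit false

namespace Cfsg.Agent.Lib.Helper98.T73

open Cfsg.Agent.Lib.Helper47 Module Polynomial

universe u

variable {F : Type u} [Field F] [Fintype F] {V : Type u} [AddCommGroup V] [Module F V]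
  [FiniteDimensional F V] {Q : V → F} {B : V → V → F}

/-- CHARP -/
theorem charp (hQ : IsQuad Q B) (hnd : Nondeg B) (p : ℕ) [Fact p.Prime] [CharP F p]
    (r : ℕ) (hr : r.Prime) (hr2 : r ≠ 2) (hrp : r ≠ p) (g : Module.End F V) (hgQ : QI Q g)
    (hg : g ^ r = 1) (hg1 : g ≠ 1) :
    ∃ u : Multiset F[X], (∀ f ∈ u, IsCycFactor r f) ∧ u.map (dualP (RingHom.id F)) = u ∧ u ≠ 0 ∧
      g.charpoly = (X - 1) ^ finrank F (LinearMap.ker (g - 1)) * u.prod ∧
      finrank F (LinearMap.range (g - 1))
        = orderOf ((Fintype.card F : ℕ) : ZMod r) * Multiset.card u := by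
  classical
  let b := Module.finBasis F V
  obtain ⟨M, hMdef⟩ : ∃ M : Matrix (Fin (finrank F V)) (Fin (finrank F V)) F,
      M = LinearMap.toMatrix b b g := ⟨_, rfl⟩
  have hMch : M.charpoly = g.charpoly := by
    rw [hMdef]; exact LinearMap.charpoly_toMatrix g b
  have hM : M ^ r = 1 := by
    have h1 : LinearMap.toMatrixAlgEquiv b (g ^ r) = (LinearMap.toMatrixAlgEquiv b g) ^ r :=
      map_pow _ _ _
    rw [hg, map_one] at h1
    rw [hMdef]
    exact h1.symm
  obtain ⟨c, s, hs, hch⟩ := charpoly_factors_of_pow_eq_one p hr hrp M hM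
  have hdual : dualP (RingHom.id F) g.charpoly = g.charpoly :=
    Cfsg.Agent.Lib.Helper82.charpoly_selfdual (ε := 1) hQ.form hnd g
      (fun x y => hQ.isometry hQ g hgQ x y)
  have hMu : IsUnit M := by
    have hr1 : M * M ^ (r - 1) = 1 := by
      rw [← pow_succ', Nat.sub_add_cancel hr.one_le, hM]
    exact IsUnit.of_mul_eq_one _ hr1
  have hdet : IsUnit M.det := (Matrix.isUnit_iff_isUnit_det M).mp hMu
  have h1 : ((sT (RingHom.id F) M)⁻¹).charpoly = dualP (RingHom.id F) M.charpoly :=
    charpoly_sT_inv M hdet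
  have h2' : (sT (RingHom.id F) M)⁻¹ = Matrix.transpose (M⁻¹) := by
    rw [Matrix.transpose_nonsing_inv]
    congr 1
  have hinv : (M⁻¹).charpoly = M.charpoly := by
    rw [← Matrix.charpoly_transpose, ← h2', h1, hMch, hdual]
  have hsd := Cfsg.Agent.Lib.Helper43.Oq.selfdual_multiset r hr hr2 hrp M hM hinv c s hs hch
  have hrF : (r : F) ≠ 0 :=
    natCast_ne_zero_of_coprime p ((Nat.coprime_primes hr Fact.out).mpr hrp)
  have hker := charpoly_eq_ker_range g r hrF hg
  have hcmp : (X - 1 : F[X]) ^ c * s.prod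
      = (X - 1) ^ finrank F (LinearMap.ker (g - 1))
        * (resInv g (range_sub_one_invt g)).charpoly := by
    rw [← hch, hMch]
    exact hker
  obtain ⟨hc, hP⟩ := pow_mul_cancel_of_eval_ne hcmp (cyc_prod_eval_one_ne p hr hrp s hs)
    (eval_one_charpoly_resInv_range g r hrF hg)
  have hdeg : (resInv g (range_sub_one_invt g)).charpoly.natDegree
      = finrank F (LinearMap.range (g - 1)) := LinearMap.charpoly_natDegree _
  have hs0 : s ≠ 0 := by
    rintro rfl
    rw [Multiset.prod_zero] at hP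
    rw [← hP, natDegree_one] at hdeg
    have hr0 : LinearMap.range (g - 1) = ⊥ := Submodule.finrank_eq_zero.mp hdeg.symm
    apply hg1
    exact sub_eq_zero.mp (LinearMap.range_eq_bot.mp hr0)
  refine ⟨s, hs, hsd, hs0, ?_, ?_⟩
  · rw [← hMch, hch, hc]
  · rw [← hdeg, ← hP]
    have h := natDegree_cyc_prod (F := F) 0 s
      (fun f hf => ⟨(hs f hf).1, IsCycFactor.natDegree_eq (p := p) rfl hr hrp (hs f hf)⟩)
    rw [pow_zero, one_mul, zero_add] at h
    exact h

end Cfsg.Agent.Lib.Helper98.T73
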