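import Mathlib
import Cfsg.Agent.Lib.Helper18.CTDefs

/-!
Project CT (S4699, helper18), piece TAU2 (helper89): an operator commuting with the whole
representation commutes with `tau`.
-/

set_option autoImplicit false

namespace Cfsg.Agent.Lib.Helper18.CT

variable {G : Type*} [Group G] {F : Type*} [Field F] {V : Type*} [AddCommGroup V] [Module F V]

-- piece TAU2
theorem tau_commute [Finite G] (ρ : Representation F G V) (P : Subgroup G) (x : G)
    (ψ : Module.End F V) (hψ : ∀ u : G, Commute ψ (ρ u)) : Commute ψ (tau ρ P x) := by
  unfold tau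
  apply Commute.list_prod_right
  intro a ha
  rw [List.mem_map] at ha
  obtain ⟨u, -, rfl⟩ := ha
  exact (hψ u).sub_right (Commute.one_right ψ)

end Cfsg.Agent.Lib.Helper18.CT
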