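import Cfsg.Agent.Lib.Helper96.SpBlock
import Cfsg.Agent.Lib.Helper98.O72Defs
import Cfsg.Agent.Lib.Helper98.O72Fix
import Cfsg.Agent.Lib.Helper46.O72HALF
import Cfsg.Agent.Lib.Helper95.O72EVEN

/-!
Project HY (S5992, helper96), piece BLOCK (helper89): symmetric twin of
`Cfsg.Agent.Lib.Helper96.Sp.exists_block`.
-/

set_option autoImplicit false
set_option linter.unusedSectionVars false
set_option linter.unusedVariables false

namespace Cfsg.Agent.Lib.Helper89.Hy

open Module Polynomial Cfsg.Agent.Lib.Helper96.Sp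
  Cfsg.Agent.Lib.Helper96.BG

universe u

variable {F : Type u} [Field F] [Fintype F] {V : Type u} [AddCommGroup V] [Module F V]
  [FiniteDimensional F V] {B : LinearMap.BilinForm F V}

-- PIECE BLOCK
theorem exists_block (hS : B.IsSymm) (h2 : (2 : F) ≠ 0) (hN : ND B ⊤) (T : Module.End F V)
    (hT : Isom B T) (r : ℕ) [Fact r.Prime] (hr2 : r ≠ 2) (hrq : ¬ r ∣ Fintype.card F)
    (hr0 : (r : F) ≠ 0) (hTr : T ^ r = 1) (W : Submodule F V) (hW : W.map T ≤ W)
    (hWnd : ND B W) (hWR : W ≤ LinearMap.range (T - 1)) (hW0 : W ≠ ⊥) :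
    ∃ P : Submodule F V, P ≤ W ∧ P.map T ≤ P ∧ ND B P ∧
      finrank F P = blk (Fintype.card F) r := by
  classical
  unfold blk
  obtain ⟨hi, -, -, hdisj, hRinv, -, hdiv, -, -⟩ := pow_one_setup T r hrq hr0 hTr
  obtain ⟨U, hUW, hU, hUi⟩ := exists_inv_dim T r hrq hr0 hTr W hW hWR hW0
  have hUR := le_trans hUW hWR
  have hinfinv : ∀ X Y : Submodule F V, X.map T ≤ X → Y.map T ≤ Y →
      (X ⊓ B.orthogonal Y).map T ≤ X ⊓ B.orthogonal Y := by
    rintro X Y hX hY _ ⟨x, hx, rfl⟩
    exact ⟨hX ⟨x, hx.1, rfl⟩, perp_invariant hN hT hY ⟨x, hx.2, rfl⟩⟩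
  rcases inv_eq_bot_or T r hrq hr0 hTr U hUR hUi _ inf_le_left (hinfinv U U hU hU) with
    hrad | hrad
  · have hUnd : ND B U := Cfsg.Agent.Lib.Helper98.O72.nd_of_inf_perp hS h2 hrad
    have heven : Even (orderOf ((Fintype.card F : ℕ) : ZMod r)) := by
      rw [← hUi]
      exact Cfsg.Agent.Lib.Helper98.O72.even_finrank_of_nd_range hS h2 hN T hT r hr2 hrq hr0
        hTr U hU hUnd hUR
    exact ⟨U, hUW, hU, hUnd, by rw [if_pos heven]; exact hUi⟩
  · have hUU : Orth B U U := by
      rw [orth_iff_le_perp]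
      exact inf_eq_left.mp hrad
    obtain ⟨U', hU'W, hU', hU'i, hU'U⟩ :=
      Cfsg.Agent.Lib.Helper98.O72.exists_partner hS h2 hN T hT r hrq hr0 hTr W hW hWnd U hUW hU
    rw [hUi] at hU'i
    have hU'R := le_trans hU'W hWR
    rcases inv_eq_bot_or T r hrq hr0 hTr U' hU'R hU'i _ inf_le_left (hinfinv U' U' hU' hU') with
      hrad' | hrad'
    · have hU'nd : ND B U' := Cfsg.Agent.Lib.Helper98.O72.nd_of_inf_perp hS h2 hrad'
      have heven : Even (orderOf ((Fintype.card F : ℕ) : ZMod r)) := by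
        rw [← hU'i]
        exact Cfsg.Agent.Lib.Helper98.O72.even_finrank_of_nd_range hS h2 hN T hT r hr2 hrq hr0
          hTr U' hU' hU'nd hU'R
      exact ⟨U', hU'W, hU', hU'nd, by rw [if_pos heven]; exact hU'i⟩
    · have hUU' : Orth B U' U' := by
        rw [orth_iff_le_perp]
        exact inf_eq_left.mp hrad'
      have hU2 : U ⊓ B.orthogonal U' = ⊥ := by
        rcases inv_eq_bot_or T r hrq hr0 hTr U hUR hUi _ inf_le_left (hinfinv U U' hU hU') with
          h | h
        · exact h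
        · exfalso
          have h1 : U ≤ B.orthogonal U' := inf_eq_left.mp h
          have h2' : U' ≤ B.orthogonal U :=
            orth_iff_le_perp.mp
              (Cfsg.Agent.Lib.Helper98.O72.orth_symm hS h2 (orth_iff_le_perp.mpr h1))
          have h3 : U' = ⊥ := by
            rw [eq_bot_iff, ← hU'U]
            exact le_inf le_rfl h2'
          rw [h3, finrank_bot] at hU'i
          omega
      have hPnd : ND B (U ⊔ U') :=
        Cfsg.Agent.Lib.Helper98.O72.nd_pair hS h2 hUU hUU' hU'U hU2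
      have hPW : U ⊔ U' ≤ W := sup_le hUW hU'W
      have hPinv : (U ⊔ U').map T ≤ U ⊔ U' := by
        rw [Submodule.map_sup]
        exact sup_le_sup hU hU'
      by_cases heven : Even (orderOf ((Fintype.card F : ℕ) : ZMod r))
      · have hdvd : r ∣ Fintype.card F ^ (orderOf ((Fintype.card F : ℕ) : ZMod r) / 2) + 1 :=
          dvd_half r _ Fintype.card_pos heven hi
        obtain ⟨Z, hZP, hZ, hZnd, hZi⟩ :=
          Cfsg.Agent.Lib.Helper98.O72.exists_nd_half hS h2 hN T hT r hr2 hTr _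
            (by omega) hdvd U U' (U ⊔ U') hU hU' hUi hU'i hUU hUU' rfl hPnd
            (fun Z hZP hZ => hdiv Z (le_trans hZP (le_trans hPW hWR)) hZ)
            (fun v hv hfix => by
              have h1 : v ∈ LinearMap.ker (T - 1) ⊓ LinearMap.range (T - 1) :=
                ⟨LinearMap.mem_ker.mpr (by rw [LinearMap.sub_apply, hfix]; exact sub_self v),
                  hWR (hPW hv)⟩
              rw [hdisj] at h1
              exact (Submodule.mem_bot F).mp h1)
        exact ⟨Z, le_trans hZP hPW, hZ, hZnd, by rw [if_pos heven]; exact hZi⟩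
      · refine ⟨U ⊔ U', hPW, hPinv, hPnd, ?_⟩
        rw [if_neg heven]
        have h1 := Submodule.finrank_sup_add_finrank_inf_eq U U'
        have h2' : U ⊓ U' = ⊥ := by
          rw [eq_bot_iff, ← hU'U]
          exact le_inf inf_le_right (le_trans inf_le_left (orth_iff_le_perp.mp hUU))
        rw [h2', finrank_bot, hUi, hU'i] at h1
        omega

end Cfsg.Agent.Lib.Helper89.Hy
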