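import Cfsg.Agent.Lib.Helper24.TwBN
import Cfsg.Agent.S0319

/-!
# Twisted groups, piece I (job TW-I, by helper89): simplicity from the `(B, N)`-pair

`TwSet.twI_simple` is the statement of piece I with the conclusions of pieces K4 and E as
hypotheses; `Cfsg/Agent/Lib/Helper24/TwI.lean` instantiates them.
-/

set_option autoImplicit false

namespace Cfsg.Agent.Lib.Helper24

open Cfsg.Lie Matrix
open Cfsg.Agent.Lib.Helper25 (wPi wEta negSet uMinus)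

variable {F : Type*} [Field F]

namespace TwSet

variable {D : ChevalleyDatum} {hD : D ∈ chevList} (T : TwSet F D hD)

/-- the commutator word of two blocks acts trivially on the roots as soon as the commutator of
the two block elements lies in `B` -/
theorem twI_comm_word
    (hK4 : ∀ (L L' : List ℕ), (∀ i ∈ L, i < D.rank) → (∀ i ∈ L', i < D.rank) →
      nWordGL (F := F) D hD L * (nWordGL D hD L')⁻¹ ∈ D.diagonalSubgroup F →
      ∀ r < D.nroots, wPi D L r = wPi D L' r)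
    (J J' : List ℕ) (hJ : J ∈ T.blocks) (hJ' : J' ∈ T.blocks)
    (hc : nWordGL (F := F) D hD (J ++ J') * (nWordGL D hD (J' ++ J))⁻¹ ∈ D.borelSubgroup F)
    (r : ℕ) (hr : r < D.nroots) :
    wPi D (J ++ J' ++ J.reverse ++ J'.reverse) r = r := by
  have hD7 : D ∈ [chevG2, chevB2, chevD4, chevF4, chevE6, chevE7, chevE8] := hD
  have hLJ : ∀ i ∈ J, i < D.rank := T.hblk J hJ
  have hLJ' : ∀ i ∈ J', i < D.rank := T.hblk J' hJ'
  have hL1 : ∀ i ∈ J ++ J', i < D.rank := by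
    intro i hi
    rcases List.mem_append.1 hi with h | h
    · exact hLJ i h
    · exact hLJ' i h
  have hL2 : ∀ i ∈ J' ++ J, i < D.rank := by
    intro i hi
    rcases List.mem_append.1 hi with h | h
    · exact hLJ' i h
    · exact hLJ i h
  have hmono : nWordGL (F := F) D hD (J ++ J') * (nWordGL D hD (J' ++ J))⁻¹ ∈
      D.monomialSubgroup F :=
    mul_mem (nWordGL_mem_monomial D hD _ hL1) (inv_mem (nWordGL_mem_monomial D hD _ hL2))
  have hdiag : nWordGL (F := F) D hD (J ++ J') * (nWordGL D hD (J' ++ J))⁻¹ ∈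
      D.diagonalSubgroup F := by
    rw [← borel_inf_monomial D hD]
    exact ⟨hc, hmono⟩
  have hK := hK4 (J ++ J') (J' ++ J) hL1 hL2 hdiag
  have hrev1 : ∀ i ∈ J.reverse, i < D.rank := fun i hi => hLJ i (List.mem_reverse.1 hi)
  have hrev2 : ∀ i ∈ J'.reverse, i < D.rank := fun i hi => hLJ' i (List.mem_reverse.1 hi)
  have hr1 : wPi D J'.reverse r < D.nroots := Cfsg.Agent.Lib.Helper25.wPi_lt D hD7 _ hrev2 r hr
  have hr2 : wPi D J.reverse (wPi D J'.reverse r) < D.nroots :=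
    Cfsg.Agent.Lib.Helper25.wPi_lt D hD7 _ hrev1 _ hr1
  rw [Cfsg.Agent.Lib.Helper25.wPi_append, Cfsg.Agent.Lib.Helper25.wPi_append, hK _ hr2,
    Cfsg.Agent.Lib.Helper25.wPi_append,
    Cfsg.Agent.Lib.Helper25.wPi_reverse_cancel D hD7 J hLJ _ hr1,
    Cfsg.Agent.Lib.Helper25.wPi_reverse_cancel D hD7 J' hLJ' r hr]

/-- the inclusion of `B ⊓ G1` (inside `G1`) into `B` -/
def twI_hom : ↥((D.borelSubgroup F ⊓ T.G1).subgroupOf T.G1) →* ↥(D.borelSubgroup F) where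
  toFun x := ⟨((x : ↥T.G1) : GL D.Idx F), (Subgroup.mem_subgroupOf.1 x.2).1⟩
  map_one' := rfl
  map_mul' _ _ := rfl

theorem twI_hom_injective : Function.Injective T.twI_hom := by
  intro a b hab
  have h1 := congrArg Subtype.val hab
  exact Subtype.ext (Subtype.ext h1)

/-- `B ⊓ G1` inside `G1` is solvable -/
theorem twI_solvable :
    Group.IsSolvable ↥((D.borelSubgroup F ⊓ T.G1).subgroupOf T.G1) := by
  have hsol : Group.IsSolvable ↥(D.borelSubgroup F) := borel_isSolvable D hD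
  exact Group.isSolvable_of_isSolvable_injective T.twI_hom_injective

/-- the `(B, N)`-pair of a twisted group is irreducible under the check on the blocks -/
theorem twI_irreducible
    (hK4 : ∀ (L L' : List ℕ), (∀ i ∈ L, i < D.rank) → (∀ i ∈ L', i < D.rank) →
      nWordGL (F := F) D hD L * (nWordGL D hD L')⁻¹ ∈ D.diagonalSubgroup F →
      ∀ r < D.nroots, wPi D L r = wPi D L' r)
    (P : Cfsg.BNPair ↥T.G1)
    (hPB : P.B = (D.borelSubgroup F ⊓ T.G1).subgroupOf T.G1)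
    (hPS : P.S = {s : ↥T.G1 | ∃ J ∈ T.blocks, (s : GL D.Idx F) = nWordGL D hD J})
    (hirr : ∀ Js : List (List ℕ), (∀ J ∈ Js, J ∈ T.blocks) → Js ≠ [] →
      (∃ J ∈ T.blocks, J ∉ Js) → ∃ J ∈ Js, ∃ J' ∈ T.blocks, J' ∉ Js ∧
        ∃ r < D.nroots, wPi D (J ++ J' ++ J.reverse ++ J'.reverse) r ≠ r) :
    P.Irreducible := by
  classical
  intro 𝒥 h𝒥 hne hne'
  obtain ⟨s₀, hs₀⟩ := hne
  obtain ⟨s₁, hs₁, hs₁'⟩ := hne'
  obtain ⟨Js, hJs⟩ : ∃ Js : List (List ℕ),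
      Js = T.blocks.filter (fun J => ∃ s ∈ 𝒥, (s : GL D.Idx F) = nWordGL D hD J) := ⟨_, rfl⟩
  have hmemJs : ∀ J, J ∈ Js ↔
      J ∈ T.blocks ∧ ∃ s ∈ 𝒥, (s : GL D.Idx F) = nWordGL D hD J := by
    intro J
    rw [hJs, List.mem_filter, decide_eq_true_iff]
  have hJs1 : ∀ J ∈ Js, J ∈ T.blocks := fun J hJ => ((hmemJs J).1 hJ).1
  have hJs2 : Js ≠ [] := by
    have h0 : s₀ ∈ P.S := h𝒥 hs₀
    rw [hPS] at h0
    obtain ⟨J, hJ, hsJ⟩ := h0
    exact List.ne_nil_of_mem ((hmemJs J).2 ⟨hJ, s₀, hs₀, hsJ⟩)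
  have hJs3 : ∃ J ∈ T.blocks, J ∉ Js := by
    have h1 : s₁ ∈ P.S := hs₁
    rw [hPS] at h1
    obtain ⟨J, hJ, hsJ⟩ := h1
    refine ⟨J, hJ, fun hJJ => ?_⟩
    obtain ⟨-, s, hs, hsJ'⟩ := (hmemJs J).1 hJJ
    have hss : s = s₁ := Subtype.ext (hsJ'.trans hsJ.symm)
    exact hs₁' (hss ▸ hs)
  obtain ⟨J, hJJs, J', hJ', hJ'Js, r, hr, hrne⟩ := hirr Js hJs1 hJs2 hJs3
  obtain ⟨hJ, s, hs, hsJ⟩ := (hmemJs J).1 hJJs
  refine ⟨s, hs, ⟨nWordGL D hD J', T.hnJ J' hJ'⟩, ⟨?_, ?_⟩, ?_⟩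
  · rw [hPS]
    exact ⟨J', hJ', rfl⟩
  · intro h
    exact hJ'Js ((hmemJs J').2 ⟨hJ', _, h, rfl⟩)
  · intro hc
    rw [hPB, Subgroup.mem_subgroupOf] at hc
    have hcval : ((s * ⟨nWordGL D hD J', T.hnJ J' hJ'⟩ * s⁻¹ *
        (⟨nWordGL D hD J', T.hnJ J' hJ'⟩ : ↥T.G1)⁻¹ : ↥T.G1) : GL D.Idx F) =
        nWordGL D hD (J ++ J') * (nWordGL D hD (J' ++ J))⁻¹ := by
      rw [nWordGL_append, nWordGL_append, _root_.mul_inv_rev, ← hsJ]
      simp only [Subgroup.coe_mul, Subgroup.coe_inv, mul_assoc]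
    rw [hcval] at hc
    exact hrne (T.twI_comm_word hK4 J J' hJ hJ' hc.1 r hr)

/-- Piece I with piece K4 and the `(B, N)`-pair of piece E as hypotheses. -/
theorem twI_simple
    (hK4 : ∀ (L L' : List ℕ), (∀ i ∈ L, i < D.rank) → (∀ i ∈ L', i < D.rank) →
      nWordGL (F := F) D hD L * (nWordGL D hD L')⁻¹ ∈ D.diagonalSubgroup F →
      ∀ r < D.nroots, wPi D L r = wPi D L' r)
    (hE : ∃ P : Cfsg.BNPair ↥T.G1,
      P.B = (D.borelSubgroup F ⊓ T.G1).subgroupOf T.G1 ∧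
      P.N = (D.monomialSubgroup F ⊓ T.G1).subgroupOf T.G1 ∧
      P.S = {s : ↥T.G1 | ∃ J ∈ T.blocks, (s : GL D.Idx F) = nWordGL D hD J})
    (hirr : ∀ Js : List (List ℕ), (∀ J ∈ Js, J ∈ T.blocks) → Js ≠ [] →
      (∃ J ∈ T.blocks, J ∉ Js) → ∃ J ∈ Js, ∃ J' ∈ T.blocks, J' ∉ Js ∧
        ∃ r < D.nroots, wPi D (J ++ J' ++ J.reverse ++ J'.reverse) r ≠ r)
    (hperf : commutator ↥T.G1 = ⊤)
    (hcore : ((D.borelSubgroup F ⊓ T.G1).subgroupOf T.G1).normalCore = ⊥)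
    (hnt : Nontrivial ↥T.G1) : IsSimpleGroup ↥T.G1 := by
  obtain ⟨P, hPB, -, hPS⟩ := hE
  have hsolv : Group.IsSolvable ↥P.B := by
    rw [hPB]
    exact T.twI_solvable
  exact Cfsg.Agent.S0319.result P (T.twI_irreducible hK4 P hPB hPS hirr) hsolv hperf
    (by rw [hPB]; exact hcore)

end TwSet

end Cfsg.Agent.Lib.Helper24
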