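import Cfsg.Agent.Lib.Helper27.ChevDyn
import Cfsg.Agent.Lib.Helper25.ChevBruhat
import Cfsg.Agent.Lib.Helper24.GenRoot
import Cfsg.Agent.Lib.Helper8.BN3

/-!
# Job piece PC for S2156: minimal parabolic subgroups of a Chevalley group
-/

set_option autoImplicit false

namespace Cfsg.Agent.Lib.Helper89.ChevDynP

open Cfsg.Lie Cfsg.Agent.Lib.Helper27.PslnOut Cfsg.Agent.Lib.Helper27.DynOut
  Cfsg.Agent.Lib.Helper27.ChevDyn

open Cfsg.Agent.Lib.Helper24 Cfsg.Agent.Lib.Helper25

variable {F : Type*} [Field F] (D : ChevalleyDatum)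

/-- the value of `xg` (own copy of P0) -/
theorem xg_val_pc (hD : D ∈ lst) (r : ℕ) (a : F) :
    ((xg D r a : GL D.Idx F) : Matrix D.Idx D.Idx F) = D.x F r a := by
  have hD' : D ∈ chevList := hD
  have hex : ∃ g : ↥(D.group F), ((g : GL D.Idx F) : Matrix D.Idx D.Idx F) = D.x F r a :=
    ⟨⟨xGL D hD' r a, xGL_mem_group D hD' r a⟩, xGL_val D hD' r a⟩
  unfold xg
  rw [dif_pos hex]
  exact hex.choose_spec

/-- a `GL` element of `H` with matrix `h_r(c)` -/
theorem exists_hGL_pc (hD : D ∈ chevList) (r : ℕ) (hr : r < D.nroots) (c : F) (hc : c ≠ 0) :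
    ∃ h : GL D.Idx F, h ∈ D.diagonalSubgroup F ∧ (h : Matrix D.Idx D.Idx F) = D.hMat F r c := by
  obtain ⟨g, _, hg⟩ := exists_mem_group_of_word (F := F) D hD (D.hWord r c)
  exact ⟨g, Subgroup.subset_closure ⟨r, c, hr, hc, hg⟩, hg⟩

/-- `x_{-p}(a) ∈ B n_p B` for `a ≠ 0`. -/
theorem y_mem_BnB (hD : D ∈ [chevG2, chevB2, chevD4, chevF4, chevE6, chevE7, chevE8])
    (hD' : D ∈ chevList) (i : ℕ) (hi : i < D.rank) (a : F) (ha : a ≠ 0) :
    ∃ b₁ ∈ D.borelSubgroup F, ∃ b₂ ∈ D.borelSubgroup F,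
      xGL D hD' (D.neg (D.simple i)) a = b₁ * nGL D hD' (D.simple i) * b₂ := by
  have hp := simple_lt D hD' i hi
  have hpos := (upChk_all D hD i hi).1
  obtain ⟨h, hh, hhv⟩ := exists_hGL_pc D hD' (D.simple i) hp (-a⁻¹)
    (neg_ne_zero.mpr (inv_ne_zero ha))
  have hxU : xGL D hD' (D.simple i) a⁻¹ ∈ D.borelSubgroup F :=
    Subgroup.mem_sup_left (Subgroup.subset_closure ⟨D.simple i, a⁻¹, hpos, rfl⟩)
  refine ⟨xGL D hD' (D.simple i) a⁻¹ * h, mul_mem hxU (Subgroup.mem_sup_right hh),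
    xGL D hD' (D.simple i) a⁻¹, hxU, ?_⟩
  apply Units.ext
  simp only [Units.val_mul]
  rw [xGL_val, xGL_val, hhv, nGL_val, x_neg_eq D hD (D.simple i) hp a ha,
    nMat_eq_hMat_mul D hD (D.simple i) hp (-a⁻¹)]
  simp only [Matrix.mul_assoc]

/-- `V ∩ P_i` consists of the `x_{-p_i}(a)`. -/
theorem para_inf_neg (hD : D ∈ [chevG2, chevB2, chevD4, chevF4, chevE6, chevE7, chevE8]) (i : ℕ)
    (hi : i < D.rank) (g : GL D.Idx F) (hgV : g ∈ D.negUnipotent F)
    (hgP : g ∈ D.parabolicSubgroup F {i}) :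
    ∃ a : F, (g : Matrix D.Idx D.Idx F) = D.x F (D.neg (D.simple i)) a := by
  have hD' : D ∈ chevList := hD
  have hp : D.simple i < D.nroots := simple_lt D hD' i hi
  obtain ⟨hpos, hchk⟩ := upChk_all D hD i hi
  have hHB : D.diagonalSubgroup F ≤ D.borelSubgroup F := le_sup_right
  have hUB : D.posUnipotent F ≤ D.borelSubgroup F := le_sup_left
  have hBV := borel_inf_negUnipotent (F := F) D hD'
  have hn : ((nGL (F := F) D hD' (D.simple i) : GL D.Idx F) : Matrix D.Idx D.Idx F) =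
      D.nMat F (D.simple i) 1 := nGL_val D hD' _
  obtain ⟨P', hP'⟩ := borel_union_doubleCoset (F := F) D hD i hi _ hn
  have hle : D.parabolicSubgroup F {i} ≤ P' := by
    unfold ChevalleyDatum.parabolicSubgroup
    apply sup_le
    · intro b hb
      have : b ∈ (P' : Set (GL D.Idx F)) := by rw [hP']; exact Or.inl hb
      exact this
    · rw [Subgroup.closure_le]
      rintro s ⟨j, hj, _, hs⟩
      have hji : j = i := hj
      subst hji
      have hsn : s = nGL (F := F) D hD' (D.simple j) := Units.ext (hs.trans hn.symm)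
      rw [hsn]
      have : nGL (F := F) D hD' (D.simple j) ∈ (P' : Set (GL D.Idx F)) := by
        rw [hP']
        right
        rw [DoubleCoset.mem_doubleCoset]
        exact ⟨1, one_mem _, 1, one_mem _, by simp⟩
      exact this
  have hg' : g ∈ (P' : Set (GL D.Idx F)) := hle hgP
  rw [hP'] at hg'
  rcases hg' with hgB | hgD
  · have : g ∈ D.borelSubgroup F ⊓ D.negUnipotent F := Subgroup.mem_inf.2 ⟨hgB, hgV⟩
    rw [hBV, Subgroup.mem_bot] at this
    exact ⟨0, by rw [this, Cfsg.Agent.Lib.Helper24.x_zero, Units.val_one]⟩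
  · rw [DoubleCoset.mem_doubleCoset] at hgD
    obtain ⟨b₁, hb₁, b₂, hb₂, hg⟩ := hgD
    have hmain := up_main (F := F) D hD i hi hpos hchk
    have hHU : D.diagonalSubgroup F ≤
        Subgroup.normalizer (D.posUnipotent F : Set (GL D.Idx F)) :=
      diagonal_le_normalizer_rootGen D hD' D.IsPosRoot (fun r hr => hr.1)
    obtain ⟨u', hu', h, hh, rfl⟩ := mem_sup_of_le_normalizer _ _ hHU b₁ hb₁
    rw [← hmain.2] at hu'
    obtain ⟨u, hu, x, hx, rfl⟩ :=
      mem_sup_of_le_normalizer _ _ (le_trans le_sup_left hmain.1) u' hu'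
    obtain ⟨t, ht⟩ := mem_rootSubgroup D hD (D.simple i) hp x hx
    have hnU := np_mem_normalizer_up D hD i hi hchk (nGL (F := F) D hD' (D.simple i)) hn
    have hxN := hmain.1 (Subgroup.mem_sup_left hx)
    have h1 := ((Subgroup.mem_set_normalizer_iff.1 (inv_mem hxN)) u).1 hu
    rw [inv_inv] at h1
    have h2 : (nGL (F := F) D hD' (D.simple i))⁻¹ * (x⁻¹ * u * x) * nGL D hD' (D.simple i) ∈
        D.borelSubgroup F := by
      apply hUB
      rw [← hmain.2]
      apply Subgroup.mem_sup_left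
      have := ((Subgroup.mem_set_normalizer_iff.1 (inv_mem hnU)) _).1 h1
      rw [inv_inv] at this
      exact this
    have hnN : nGL (F := F) D hD' (D.simple i) ∈ D.monomialSubgroup F :=
      simple_n_le_monomial D hD (Subgroup.subset_closure ⟨i, hi, hn⟩)
    have hnH := monomial_le_normalizer_diagonal D hD' hnN
    have h3 : (nGL (F := F) D hD' (D.simple i))⁻¹ * h * nGL D hD' (D.simple i) ∈
        D.borelSubgroup F := by
      apply hHB
      have := ((Subgroup.mem_set_normalizer_iff.1 (inv_mem hnH)) h).1 hh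
      rw [inv_inv] at this
      exact this
    obtain ⟨b₃, hb₃B, hg2⟩ : ∃ b₃ ∈ D.borelSubgroup F,
        g = x * nGL D hD' (D.simple i) * b₃ := by
      refine ⟨((nGL (F := F) D hD' (D.simple i))⁻¹ * (x⁻¹ * u * x) * nGL D hD' (D.simple i)) *
        ((nGL (F := F) D hD' (D.simple i))⁻¹ * h * nGL D hD' (D.simple i)) * b₂,
        mul_mem (mul_mem h2 h3) hb₂, ?_⟩
      rw [hg]
      group
    by_cases ht0 : t = 0
    · have hx1 : x = 1 := Units.ext (by rw [ht, ht0, Cfsg.Agent.Lib.Helper24.x_zero, Units.val_one])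
      rw [hx1, one_mul] at hg2
      exfalso
      have hrefl : D.reflectRoot i (D.simple i) = D.neg (D.simple i) := by
        unfold ChevalleyDatum.reflectRoot
        simp
      have hc := n_simple_conj (F := F) D hD i hi (D.simple i) hp 1
      rw [hrefl, mul_one] at hc
      obtain ⟨_, hnp, _, _, _⟩ := reflect_facts D hD i hi (D.simple i) hp
      have e : nGL (F := F) D hD' (D.simple i) * xGL D hD' (D.simple i) 1 =
          xGL D hD' (D.neg (D.simple i)) ((nEta D i (D.simple i) : ℤ) : F) *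
            nGL D hD' (D.simple i) := by
        apply Units.ext
        simp only [Units.val_mul]
        rw [hn, xGL_val, xGL_val, hc]
      have hx₁B : xGL (F := F) D hD' (D.simple i) 1 ∈ D.borelSubgroup F :=
        hUB (Subgroup.subset_closure ⟨D.simple i, 1, hpos, rfl⟩)
      have hzV : xGL (F := F) D hD' (D.neg (D.simple i)) ((nEta D i (D.simple i) : ℤ) : F) ∈
          D.negUnipotent F :=
        Subgroup.subset_closure ⟨D.neg (D.simple i), _,
          ((sign_facts D hD (D.simple i) hp).2.2.2).1 hpos, rfl⟩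
      have e2 : g⁻¹ * xGL (F := F) D hD' (D.neg (D.simple i)) ((nEta D i (D.simple i) : ℤ) : F)
          * g = b₃⁻¹ * xGL D hD' (D.simple i) 1 * b₃ := by
        have hz : xGL (F := F) D hD' (D.neg (D.simple i)) ((nEta D i (D.simple i) : ℤ) : F) =
            nGL D hD' (D.simple i) * xGL D hD' (D.simple i) 1 * (nGL D hD' (D.simple i))⁻¹ := by
          rw [e]; group
        rw [hz, hg2]
        group
      have hw : g⁻¹ * xGL (F := F) D hD' (D.neg (D.simple i)) ((nEta D i (D.simple i) : ℤ) : F)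
          * g ∈ D.borelSubgroup F ⊓ D.negUnipotent F := by
        refine Subgroup.mem_inf.2 ⟨?_, mul_mem (mul_mem (inv_mem hgV) hzV) hgV⟩
        rw [e2]
        exact mul_mem (mul_mem (inv_mem hb₃B) hx₁B) hb₃B
      rw [hBV, Subgroup.mem_bot] at hw
      have hz1 : xGL (F := F) D hD' (D.neg (D.simple i)) ((nEta D i (D.simple i) : ℤ) : F) = 1 := by
        have := congrArg (fun w => g * w * g⁻¹) hw
        simpa [mul_assoc] using this
      have hone : D.x F (D.neg (D.simple i)) ((nEta D i (D.simple i) : ℤ) : F) = 1 := by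
        rw [← xGL_val D hD', hz1, Units.val_one]
      refine x_ne_one D hD (D.neg (D.simple i)) hnp _ ?_ hone
      rcases nEta_cases D i (D.simple i) with h | h <;> rw [h] <;> simp
    · have hxt : x = xGL D hD' (D.simple i) t := Units.ext (by rw [ht, xGL_val])
      obtain ⟨h₁, hh₁, hh₁v⟩ := exists_hGL_pc D hD' (D.simple i) hp (-t) (neg_ne_zero.mpr ht0)
      have e : xGL (F := F) D hD' (D.neg (D.simple i)) t⁻¹ =
          x * h₁ * nGL D hD' (D.simple i) * x := by
        apply Units.ext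
        simp only [Units.val_mul]
        rw [xGL_val, x_neg_eq D hD (D.simple i) hp t⁻¹ (inv_ne_zero ht0), inv_inv, ht, hh₁v, hn,
          nMat_eq_hMat_mul D hD (D.simple i) hp (-t)]
        simp only [Matrix.mul_assoc]
      have h4 : (nGL (F := F) D hD' (D.simple i))⁻¹ * h₁⁻¹ * nGL D hD' (D.simple i) ∈
          D.borelSubgroup F := by
        apply hHB
        have := ((Subgroup.mem_set_normalizer_iff.1 (inv_mem hnH)) h₁⁻¹).1 (inv_mem hh₁)
        rw [inv_inv] at this
        exact this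
      have hxB : x ∈ D.borelSubgroup F :=
        hUB (by rw [hxt]; exact Subgroup.subset_closure ⟨D.simple i, t, hpos, rfl⟩)
      have hyV : xGL (F := F) D hD' (D.neg (D.simple i)) t⁻¹ ∈ D.negUnipotent F :=
        Subgroup.subset_closure ⟨D.neg (D.simple i), t⁻¹,
          ((sign_facts D hD (D.simple i) hp).2.2.2).1 hpos, rfl⟩
      obtain ⟨b₄, hb₄B, hg3⟩ : ∃ b₄ ∈ D.borelSubgroup F,
          g = xGL (F := F) D hD' (D.neg (D.simple i)) t⁻¹ * b₄ := by
        refine ⟨x⁻¹ * ((nGL (F := F) D hD' (D.simple i))⁻¹ * h₁⁻¹ * nGL D hD' (D.simple i)) * b₃,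
          mul_mem (mul_mem (inv_mem hxB) h4) hb₃B, ?_⟩
        rw [hg2, e]
        group
      have hb₄1 : b₄ ∈ D.borelSubgroup F ⊓ D.negUnipotent F := by
        refine Subgroup.mem_inf.2 ⟨hb₄B, ?_⟩
        have : b₄ = (xGL (F := F) D hD' (D.neg (D.simple i)) t⁻¹)⁻¹ * g := by rw [hg3]; group
        rw [this]
        exact mul_mem (inv_mem hyV) hgV
      rw [hBV, Subgroup.mem_bot] at hb₄1
      refine ⟨t⁻¹, ?_⟩
      rw [hg3, hb₄1, mul_one, xGL_val]

/-- the element `n_{p_k}` of the group -/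
noncomputable def nk (hD : D ∈ lst) (k : Fin D.rank) : ↥(D.group F) :=
  ⟨nGL D hD (D.simple k), monomialSubgroup_le_group D hD
    (simple_n_le_monomial D hD (Subgroup.subset_closure ⟨k.val, k.2, nGL_val D hD _⟩))⟩

/-- a subgroup containing `B` and `n_{p_k}` contains `P_k` -/
theorem Qg_le (hD : D ∈ lst) (k : Fin D.rank) (M : Subgroup ↥(D.group F))
    (hB : Bg F D ≤ M) (hn : nk D hD k ∈ M) : Qg F D k ≤ M := by
  have hD' : D ∈ chevList := hD
  intro g hg
  have hg' : (g : GL D.Idx F) ∈ D.parabolicSubgroup F {k.val} := Subgroup.mem_subgroupOf.1 hg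
  have hle : D.parabolicSubgroup F {k.val} ≤ M.map (D.group F).subtype := by
    unfold ChevalleyDatum.parabolicSubgroup
    apply sup_le
    · intro b hb
      exact ⟨⟨b, borelSubgroup_le_group D hD' hb⟩, hB (Subgroup.mem_subgroupOf.2 hb), rfl⟩
    · rw [Subgroup.closure_le]
      rintro s ⟨j, hj, _, hs⟩
      have hji : j = k.val := hj
      subst hji
      have hsn : s = nGL (F := F) D hD' (D.simple k.val) :=
        Units.ext (hs.trans (nGL_val D hD' _).symm)
      rw [hsn]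
      exact ⟨nk D hD k, hn, rfl⟩
  obtain ⟨m, hm, hmg⟩ := hle hg'
  have : m = g := Subtype.ext hmg
  rw [← this]
  exact hm

/-- **Piece PC**: the minimal parabolic subgroups of the Chevalley group. -/
theorem pieceC [Finite F] (hD : D ∈ lst) :
    (∀ M : Subgroup ↥(D.group F), Bg F D ≤ M → M ≠ Bg F D → ∃ k : Fin D.rank, ∀ a : F, ys D k a ∈ M) ∧
    (∀ k : Fin D.rank, Bg F D ≤ Qg F D k) ∧
    (∀ k : Fin D.rank, Qg F D k ≠ Bg F D) ∧
    (∀ (k : Fin D.rank) (a : F), ys D k a ∈ Qg F D k) ∧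
    (∀ j k : Fin D.rank, ys D j (1 : F) ∈ Qg F D k → j = k) ∧
    (∀ (k : Fin D.rank) (M : Subgroup ↥(D.group F)), Bg F D ≤ M → (∀ a : F, ys D k a ∈ M) → Qg F D k ≤ M) ∧
    (∀ (k : Fin D.rank) (g : ↥(D.group F)), g ∈ Vg F D → g ∈ Qg F D k → ∃ a : F, g = ys D k a) := by
  have hD1 : D ∈ [chevG2, chevB2, chevD4, chevF4, chevE6, chevE7, chevE8] := hD
  have hD' : D ∈ chevList := hD
  have hBG := borelSubgroup_le_group (F := F) D hD'
  have hBV := borel_inf_negUnipotent (F := F) D hD'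
  have hys : ∀ (k : Fin D.rank) (a : F),
      ((ys D k a : ↥(D.group F)) : GL D.Idx F) = xGL D hD' (D.neg (D.simple k)) a := fun k a =>
    Units.ext (by rw [xGL_val]; exact xg_val_pc D hD _ a)
  have hxs : ∀ (k : Fin D.rank) (a : F),
      ((xs D k a : ↥(D.group F)) : GL D.Idx F) = xGL D hD' (D.simple k) a := fun k a =>
    Units.ext (by rw [xGL_val]; exact xg_val_pc D hD _ a)
  have hpos : ∀ k : Fin D.rank, D.IsPosRoot (D.simple k) := fun k => (upChk_all D hD1 k k.2).1
  have hlt : ∀ k : Fin D.rank, D.simple k < D.nroots := fun k => simple_lt D hD' k k.2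
  have hnegV : ∀ (k : Fin D.rank) (a : F), ys D k a ∈ Vg F D := by
    intro k a
    show _ ∈ (D.negUnipotent F).subgroupOf (D.group F)
    rw [Subgroup.mem_subgroupOf, hys]
    exact Subgroup.subset_closure ⟨D.neg (D.simple k), a,
      ((sign_facts D hD1 (D.simple k) (hlt k)).2.2.2).1 (hpos k), rfl⟩
  have hxB : ∀ (k : Fin D.rank) (a : F), xs D k a ∈ Bg F D := by
    intro k a
    show _ ∈ (D.borelSubgroup F).subgroupOf (D.group F)
    rw [Subgroup.mem_subgroupOf, hxs]
    exact Subgroup.mem_sup_left (Subgroup.subset_closure ⟨D.simple k, a, hpos k, rfl⟩)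
  obtain ⟨P, hP⟩ : ∃ P : Cfsg.BNPair ↥(D.group F), P = chevBN (F := F) D hD1 := ⟨_, rfl⟩
  have hPB : P.B = Bg F D := by rw [hP]; rfl
  have hnS : ∀ k : Fin D.rank, nk D hD k ∈ P.S := by
    intro k
    rw [hP]
    exact ⟨k.val, k.2, nGL_val D hD' _⟩
  have hSn : ∀ σ ∈ P.S, ∃ k : Fin D.rank, σ = nk D hD k := by
    intro σ hσ
    rw [hP] at hσ
    obtain ⟨i, hi, hσ⟩ := hσ
    exact ⟨⟨i, hi⟩, Subtype.ext (Units.ext (hσ.trans (nGL_val D hD' _).symm))⟩
  have hnB : ∀ k : Fin D.rank, nk D hD k ∉ Bg F D := by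
    intro k
    rw [← hPB]
    exact Cfsg.Agent.Lib.Helper8.S_not_mem_B P (hnS k)
  have hY : ∀ (k : Fin D.rank) (M : Subgroup ↥(D.group F)), Bg F D ≤ M → nk D hD k ∈ M →
      ∀ a : F, ys D k a ∈ M := by
    intro k M hBM hnM a
    by_cases ha : a = 0
    · have h1 : ys D k a = 1 := by
        apply Subtype.ext
        rw [hys, ha]
        apply Units.ext
        rw [xGL_val, Cfsg.Agent.Lib.Helper24.x_zero]
        rfl
      rw [h1]
      exact one_mem _
    · obtain ⟨b₁, hb₁, b₂, hb₂, e⟩ := y_mem_BnB D hD1 hD' k k.2 a ha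
      have h1 : ys D k a = (⟨b₁, hBG hb₁⟩ : ↥(D.group F)) * nk D hD k * ⟨b₂, hBG hb₂⟩ := by
        apply Subtype.ext
        rw [hys, e]
        rfl
      rw [h1]
      exact mul_mem (mul_mem (hBM (Subgroup.mem_subgroupOf.2 hb₁)) hnM)
        (hBM (Subgroup.mem_subgroupOf.2 hb₂))
  have hBQ : ∀ k : Fin D.rank, Bg F D ≤ Qg F D k := by
    intro k g hg
    show g ∈ (D.parabolicSubgroup F {k.val}).subgroupOf (D.group F)
    rw [Subgroup.mem_subgroupOf]
    unfold ChevalleyDatum.parabolicSubgroup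
    exact Subgroup.mem_sup_left (Subgroup.mem_subgroupOf.1 hg)
  have hnQ : ∀ k : Fin D.rank, nk D hD k ∈ Qg F D k := by
    intro k
    show _ ∈ (D.parabolicSubgroup F {k.val}).subgroupOf (D.group F)
    rw [Subgroup.mem_subgroupOf]
    unfold ChevalleyDatum.parabolicSubgroup
    exact Subgroup.mem_sup_right (Subgroup.subset_closure ⟨k.val, rfl, k.2, nGL_val D hD' _⟩)
  have hyB : ∀ (k : Fin D.rank) (a : F), a ≠ 0 → ys D k a ∉ Bg F D := by
    intro k a ha hmem
    have h1 : ((ys D k a : ↥(D.group F)) : GL D.Idx F) ∈ D.borelSubgroup F ⊓ D.negUnipotent F :=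
      Subgroup.mem_inf.2 ⟨Subgroup.mem_subgroupOf.1 hmem, Subgroup.mem_subgroupOf.1 (hnegV k a)⟩
    rw [hBV, Subgroup.mem_bot, hys] at h1
    have hnp : D.neg (D.simple k) < D.nroots :=
      neg_lt_of_preChk D (preChk_of_mem D hD') _ (hlt k)
    refine x_ne_one D hD1 (D.neg (D.simple k)) hnp a ha ?_
    rw [← xGL_val D hD', h1, Units.val_one]
  have hQpar : ∀ k : Fin D.rank, Qg F D k = P.parabolic {nk D hD k} := by
    intro k
    apply le_antisymm
    · refine Qg_le D hD k _ ?_ ?_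
      · rw [← hPB]
        exact le_sup_left
      · exact Subgroup.mem_sup_right (Subgroup.subset_closure rfl)
    · unfold Cfsg.BNPair.parabolic
      apply sup_le
      · rw [hPB]
        exact hBQ k
      · rw [Subgroup.closure_le]
        intro s hs
        rw [Set.mem_singleton_iff] at hs
        rw [hs]
        exact hnQ k
  have hinj : ∀ j k : Fin D.rank, nk (F := F) D hD j = nk D hD k → j = k := by
    intro j k h
    by_contra hjk
    have hne : j.val ≠ k.val := fun h' => hjk (Fin.ext h')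
    have h1 := s_inv_s_not_mem (F := F) D hD1 j.val k.val j.2 k.2 hne
      (nGL D hD' (D.simple j)) (nGL_val D hD' _) (nGL D hD' (D.simple k)) (nGL_val D hD' _)
    have h2 : nGL (F := F) D hD' (D.simple j) = nGL D hD' (D.simple k) :=
      congrArg Subtype.val h
    rw [h2, inv_mul_cancel] at h1
    exact h1 (one_mem _)
  refine ⟨?_, hBQ, ?_, ?_, ?_, ?_, ?_⟩
  · intro M hBM hne
    have hM := Cfsg.Agent.Lib.Helper8.eq_parabolic P M (by rw [hPB]; exact hBM)
    by_cases hemp : ∃ σ, σ ∈ P.S ∧ σ ∈ M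
    · obtain ⟨σ, hσS, hσM⟩ := hemp
      obtain ⟨k, rfl⟩ := hSn σ hσS
      exact ⟨k, hY k M hBM hσM⟩
    · exfalso
      apply hne
      have h0 : {σ | σ ∈ P.S ∧ σ ∈ M} = (∅ : Set ↥(D.group F)) := by
        ext σ
        simp only [Set.mem_ofPred_eq, Set.mem_empty_iff_false, iff_false]
        exact fun h => hemp ⟨σ, h⟩
      rw [h0, Cfsg.Agent.Lib.Helper8.parabolic_empty, hPB] at hM
      exact hM
  · intro k h
    apply hnB k
    rw [← h]
    exact hnQ k
  · intro k a
    exact hY k _ (hBQ k) (hnQ k) a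
  · intro j k hj
    by_contra hjk
    have h1 : ys D j (1 : F) ∈ P.parabolic {nk D hD j} ⊓ P.parabolic {nk D hD k} := by
      rw [← hQpar, ← hQpar]
      exact Subgroup.mem_inf.2 ⟨hY j _ (hBQ j) (hnQ j) 1, hj⟩
    rw [Cfsg.Agent.Lib.Helper8.parabolic_inf P (Set.singleton_subset_iff.2 (hnS j))
      (Set.singleton_subset_iff.2 (hnS k))] at h1
    have h0 : ({nk D hD j} ∩ {nk D hD k} : Set ↥(D.group F)) = ∅ := by
      rw [Set.singleton_inter_eq_empty, Set.mem_singleton_iff]
      exact fun h => hjk (hinj j k h)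
    rw [h0, Cfsg.Agent.Lib.Helper8.parabolic_empty, hPB] at h1
    exact hyB j 1 one_ne_zero h1
  · intro k M hBM hyM
    apply Qg_le D hD k M hBM
    have h1 : nk D hD k = xs D k (1 : F) * (ys D k (-1) * xs D k 1) := by
      apply Subtype.ext
      rw [Subgroup.coe_mul, Subgroup.coe_mul, hxs, hys]
      rfl
    rw [h1]
    exact mul_mem (hBM (hxB k 1)) (mul_mem (hyM (-1)) (hBM (hxB k 1)))
  · intro k g hgV hgQ
    obtain ⟨a, ha⟩ := para_inf_neg D hD1 k k.2 (g : GL D.Idx F) (Subgroup.mem_subgroupOf.1 hgV)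
      (Subgroup.mem_subgroupOf.1 hgQ)
    exact ⟨a, Subtype.ext (Units.ext (ha.trans (xg_val_pc D hD _ a).symm))⟩

end Cfsg.Agent.Lib.Helper89.ChevDynP
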