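import Cfsg.Agent.Lib.Helper30.NSub0

/-!
# Job piece NS-FG1 for S5121
-/

set_option autoImplicit false

namespace Cfsg.Agent.Lib.Helper89

open Cfsg Cfsg.FusionSystem Cfsg.Agent.Lib.Helper90 Cfsg.Agent.Lib.Helper30

theorem nsub_fg1 {G : Type*} [Group G] [Finite G] {p : ℕ} [Fact p.Prime] (S : Sylow p G)
    {T : Subgroup G} (E : FusionSystem T)
    (hE : E.IsNormalIn (groupFusionSystem (S : Subgroup G)) p) :
    ∀ α ∈ E.autGroup T, (orderOf α).Coprime p → ∃ x : G, (orderOf x).Coprime p ∧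
      (∀ t : T, ((α t : T) : G) = x * t * x⁻¹) ∧
      ∀ c ∈ (S : Subgroup G), c ∈ Subgroup.centralizer (T : Set G) →
        c⁻¹ * (x * c * x⁻¹) ∈ T ⊓ Subgroup.centralizer (T : Set G) := by
  intro α hα hcop
  have hp : p.Prime := Fact.out
  have hFg : Cfsg.Agent.Lib.Helper88.IsGrpSys (groupFusionSystem (S : Subgroup G)) ⊤ :=
    Cfsg.Agent.Lib.Helper88.groupFusionSystem_isGrpSys _
  have hsub : E.IsSubsystemOf (groupFusionSystem (S : Subgroup G)) := hE.1.2.2.1
  have hTS : T ≤ S := (mor_of_subsystem hsub (mor_id E le_rfl)).le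
  have hUS : T ⊔ centralizerIn (S : Subgroup G) T ≤ S := sup_le hTS inf_le_left
  obtain ⟨β, hβ, hβα, hβc⟩ := hE.2 α hα
  have hm := (mem_autGroup_iff _ hUS β).mp hβ
  obtain ⟨_, g, _, hg⟩ := (Cfsg.Agent.Lib.Helper88.grp_mor_iff hFg).mp hm
  have hβg : ∀ x : ↥(T ⊔ centralizerIn (S : Subgroup G) T),
      ((β x : ↥(T ⊔ centralizerIn (S : Subgroup G) T)) : G) = g * x * g⁻¹ := by
    intro x
    have := (hg x x.2).1
    rw [autFun_apply] at this
    exact this
  have hαg : ∀ t : T, ((α t : T) : G) = g * t * g⁻¹ := by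
    intro t
    rw [← hβα t, hβg]
    rfl
  have hcg : ∀ c ∈ (S : Subgroup G), c ∈ Subgroup.centralizer (T : Set G) →
      c⁻¹ * (g * c * g⁻¹) ∈ T ⊓ Subgroup.centralizer (T : Set G) := by
    intro c hcS hcT
    have hcC : c ∈ centralizerIn (S : Subgroup G) T := ⟨hcS, hcT⟩
    have hcU : c ∈ T ⊔ centralizerIn (S : Subgroup G) T :=
      (le_sup_right : centralizerIn (S : Subgroup G) T ≤ _) hcC
    have := hβc ⟨c, hcU⟩ hcC
    rw [hβg] at this
    exact this
  have hpow : ∀ k : ℕ, ∀ c ∈ (S : Subgroup G), c ∈ Subgroup.centralizer (T : Set G) →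
      c⁻¹ * (g ^ k * c * (g ^ k)⁻¹) ∈ T ⊓ Subgroup.centralizer (T : Set G) := by
    intro k
    induction k with
    | zero => intro c _ _; simp
    | succ k ih =>
      intro c hcS hcT
      have hz := hcg c hcS hcT
      have hc'S : g * c * g⁻¹ ∈ (S : Subgroup G) := by
        have : g * c * g⁻¹ = c * (c⁻¹ * (g * c * g⁻¹)) := by group
        rw [this]; exact Subgroup.mul_mem _ hcS (hTS (Subgroup.mem_inf.mp hz).1)
      have hc'T : g * c * g⁻¹ ∈ Subgroup.centralizer (T : Set G) := by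
        have : g * c * g⁻¹ = c * (c⁻¹ * (g * c * g⁻¹)) := by group
        rw [this]; exact Subgroup.mul_mem _ hcT (Subgroup.mem_inf.mp hz).2
      have h2 := ih (g * c * g⁻¹) hc'S hc'T
      have : c⁻¹ * (g ^ (k + 1) * c * (g ^ (k + 1))⁻¹) =
          (c⁻¹ * (g * c * g⁻¹)) * ((g * c * g⁻¹)⁻¹ * (g ^ k * (g * c * g⁻¹) * (g ^ k)⁻¹)) := by
        rw [pow_succ]; group
      rw [this]
      exact Subgroup.mul_mem _ hz h2
  have hN0 : Nat.card G ≠ 0 := Nat.card_pos.ne'
  have hNm : p ^ (Nat.card G).factorization p * (Nat.card G / p ^ (Nat.card G).factorization p)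
      = Nat.card G := Nat.ordProj_mul_ordCompl_eq_self (Nat.card G) p
  have hmcop : p.Coprime (Nat.card G / p ^ (Nat.card G).factorization p) :=
    Nat.coprime_ordCompl hp hN0
  have hd : (orderOf α).Coprime (p ^ (Nat.card G).factorization p) :=
    Nat.Coprime.pow_right _ hcop
  obtain ⟨k, hk1, hk0⟩ := Nat.chineseRemainder hd 1 0
  have hαk : α ^ k = α := by
    have := (pow_eq_pow_iff_modEq (x := α) (n := k) (m := 1)).mpr hk1
    rwa [pow_one] at this
  have hdvd : p ^ (Nat.card G).factorization p ∣ k := (Nat.modEq_zero_iff_dvd).mp hk0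
  refine ⟨g ^ k, ?_, ?_, ?_⟩
  · have hxm : (g ^ k) ^ (Nat.card G / p ^ (Nat.card G).factorization p) = 1 := by
      obtain ⟨j, hj⟩ := hdvd
      rw [← pow_mul, hj, mul_right_comm, hNm, pow_mul, pow_card_eq_one', one_pow]
    have := orderOf_dvd_of_pow_eq_one hxm
    exact Nat.Coprime.coprime_dvd_left this hmcop.symm
  · intro t
    have := aut_pow_conj α g hαg k t
    rw [hαk] at this
    exact this
  · intro c hcS hcT
    exact hpow k c hcS hcT

end Cfsg.Agent.Lib.Helper89
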