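import Cfsg.Agent.Lib.Helper30.NSub0

/-!
# Job piece NS-FQ for S5121
-/

set_option autoImplicit false

namespace Cfsg.Agent.Lib.Helper89

open Cfsg Cfsg.FusionSystem Cfsg.Agent.Lib.Helper90 Cfsg.Agent.Lib.Helper30

theorem nsub_fq {G : Type*} [Group G] [Finite G] {p : ℕ} [Fact p.Prime] (S : Sylow p G)
    (Q : Subgroup G) [Q.Normal] (hQp : IsPGroup p Q) {T : Subgroup G} (E : FusionSystem T)
    (hEs : E.IsSaturated p) (hsub : E.IsSubsystemOf (groupFusionSystem (S : Subgroup G))) :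
    ∀ q ∈ Q, q ∈ autStab E T le_rfl → ∃ t ∈ T, ∀ y ∈ T, q * y * q⁻¹ = t * y * t⁻¹ := by
  have hFg : Cfsg.Agent.Lib.Helper88.IsGrpSys (groupFusionSystem (S : Subgroup G)) ⊤ :=
    Cfsg.Agent.Lib.Helper88.groupFusionSystem_isGrpSys _
  have hfa : E.IsFullyAutomized p T := (top_fullyAutomized_receptive hEs).1
  set B : Subgroup (MulAut T) := autInducedBy Q T ⊓ E.autGroup T with hB
  have hBp : IsPGroup p B := (isPGroup_autInducedBy (S := Q) hQp T).to_le inf_le_left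
  have hBle : B ≤ E.autGroup T := inf_le_right
  have hBn : ∀ α ∈ E.autGroup T, ∀ β ∈ B, α * β * α⁻¹ ∈ B := by
    intro α hα β hβ
    refine Subgroup.mem_inf.mpr ⟨?_, ?_⟩
    · have hm : Mor (groupFusionSystem (S : Subgroup G)) T (autFun T α) :=
        mor_of_subsystem hsub ((mem_autGroup_iff E le_rfl α).mp hα)
      obtain ⟨_, g, _, hg⟩ := (Cfsg.Agent.Lib.Helper88.grp_mor_iff hFg).mp hm
      have hαg : ∀ x : T, ((α x : T) : G) = g * x * g⁻¹ := by
        intro x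
        have := (hg x x.2).1
        rw [autFun_apply] at this
        exact this
      obtain ⟨q', hq', hβq⟩ := (mem_autInducedBy_iff Q T β).mp (Subgroup.mem_inf.mp hβ).1
      rw [mem_autInducedBy_iff]
      refine ⟨g * q' * g⁻¹, ‹Q.Normal›.conj_mem q' hq' g, fun x => ?_⟩
      show ((α (β (α⁻¹ x)) : T) : G) = _
      have h1 : (x : G) = g * ((α⁻¹ x : T) : G) * g⁻¹ := by
        have := hαg (α⁻¹ x)
        rw [← this]; simp
      have h2 : ((α⁻¹ x : T) : G) = g⁻¹ * x * g := by rw [h1]; group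
      rw [hαg, hβq, h2]; group
    · exact Subgroup.mul_mem _ (Subgroup.mul_mem _ hα (Subgroup.mem_inf.mp hβ).2)
        (Subgroup.inv_mem _ hα)
  have hBT := normal_pSubgroup_le_autInducedBy hfa B hBp hBle hBn
  intro q hq hqK
  obtain ⟨α, hα, hαq⟩ := exists_aut_of_mem_autStab hqK
  have hαB : α ∈ B := Subgroup.mem_inf.mpr ⟨(mem_autInducedBy_iff Q T α).mpr ⟨q, hq, hαq⟩, hα⟩
  obtain ⟨t, ht, hαt⟩ := (mem_autInducedBy_iff T T α).mp (hBT hαB)
  refine ⟨t, ht, fun y hy => ?_⟩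
  rw [← hαq ⟨y, hy⟩, hαt ⟨y, hy⟩]

end Cfsg.Agent.Lib.Helper89
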