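import Mathlib
import Cfsg.Prelude.Def_GeometricClasses
import Cfsg.Prelude.Def_LieClassical
import Cfsg.Agent.Lib.Helper71.Asch0
import Cfsg.Agent.S0282

/-! Project U9 (helper44, S5832), piece SOL3 (helper89): `GU_3(2)` is solvable, from the landed
S0282 (`PSU_3(2)` is solvable) through the centre of `SU_3(2)` and the determinant on `GU_3(2)`. -/

set_option autoImplicit false

namespace Cfsg.Agent.Lib.Helper44.U9

open Matrix Cfsg.Geo Cfsg.Agent.Lib.Helper71.Asch
open scoped Kronecker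

variable {n : ℕ} {F : Type*} [Field F] [Fintype F] {q : ℕ}

/-- the inclusion of `SU` in `GU` -/
def SOL3_incl (n : ℕ) (F : Type*) [Field F] (q : ℕ) :
    ↥(Cfsg.SU n F q) →* ↥(Cfsg.GU n F q) :=
  (Matrix.SpecialLinearGroup.toGL.comp (Cfsg.SU n F q).subtype).codRestrict (Cfsg.GU n F q)
    (fun s => s.2)

omit [Fintype F] in
theorem SOL3_ker_le (n : ℕ) (q : ℕ) :
    (Cfsg.Agent.Lib.Helper7.detGU n F q).ker ≤ (SOL3_incl n F q).range := by
  intro g hg
  rw [MonoidHom.mem_ker] at hg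
  have hdet : (g.1 : Matrix (Fin n) (Fin n) F).det = 1 := by
    have h := congrArg (fun u : Fˣ => (u : F)) hg
    exact h
  refine ⟨⟨(⟨(g.1 : Matrix (Fin n) (Fin n) F), hdet⟩ : Matrix.SpecialLinearGroup (Fin n) F),
    ?_⟩, ?_⟩
  · intro u v
    exact g.2 u v
  · apply Subtype.ext
    apply Units.ext
    rfl

/-- SOL3: `GU_3(2)` is solvable. -/
theorem SOL3 (hF : Fintype.card F = 4) : Group.IsSolvable ↥(Cfsg.GU 3 F 2) := by
  have hPSU : Group.IsSolvable (Cfsg.PSU 3 F 2) := (Cfsg.Agent.S0282.result hF).2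
  have hSU : Group.IsSolvable ↥(Cfsg.SU 3 F 2) := by
    have hZ : Group.IsSolvable ↥(Subgroup.center ↥(Cfsg.SU 3 F 2)) :=
      Group.isSolvable_of_comm (fun a b =>
        Subtype.ext (Subgroup.mem_center_iff.mp b.2 a.1))
    refine Group.isSolvable_of_ker_le_range (Subgroup.center (Cfsg.SU 3 F 2)).subtype
      (QuotientGroup.mk' (Subgroup.center (Cfsg.SU 3 F 2))) ?_
    rw [QuotientGroup.ker_mk', Subgroup.range_subtype]
  exact Group.isSolvable_of_ker_le_range (SOL3_incl 3 F 2)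
    (Cfsg.Agent.Lib.Helper7.detGU 3 F 2) (SOL3_ker_le 3 2)

end Cfsg.Agent.Lib.Helper44.U9
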