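import Mathlib
import Cfsg.Prelude.Def_GeometricClasses
import Cfsg.Prelude.Def_LieClassical
import Cfsg.Agent.Lib.Helper71.Asch5
import Cfsg.Agent.Lib.Helper44.BADDefs

/-! Project BAD (helper44; sub-project of helper49's SUG = S5663), piece SNORM (helper89):
every unitary `3 × 3` matrix over the field with 4 elements normalises `bS = 3^{1+2}`. -/

set_option autoImplicit false
set_option linter.unusedSectionVars false

namespace Cfsg.Agent.Lib.Helper44.BAD

open Matrix Cfsg.Geo Cfsg.Agent.Lib.Helper71.Asch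
open scoped Kronecker

variable {n : ℕ} {F : Type*} [Field F] [Fintype F] {q : ℕ}

theorem SNORM_two (hF : Fintype.card F = 4) : (2 : F) = 0 := by
  have h2 := FiniteField.pow_card (2 : F)
  have h3 := FiniteField.pow_card (3 : F)
  rw [hF] at h2 h3
  linear_combination 2 * h3 - 11 * h2

theorem SNORM_add_self (hF : Fintype.card F = 4) (x : F) : x + x = 0 := by
  rw [← two_mul, SNORM_two hF, zero_mul]

theorem SNORM_cube (hF : Fintype.card F = 4) {x : F} (hx : x ≠ 0) : x ^ 3 = 1 := by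
  have h := FiniteField.pow_card_sub_one_eq_one x hx
  rw [hF] at h
  exact h

theorem SNORM_pow4 (hF : Fintype.card F = 4) (x : F) : x ^ 4 = x := by
  have h := FiniteField.pow_card x
  rw [hF] at h
  exact h

theorem SNORM_omega (hF : Fintype.card F = 4) : ∃ w : F, w ^ 2 + w + 1 = 0 := by
  classical
  have hex : ∃ x : F, x ≠ 0 ∧ x ≠ 1 := by
    by_contra hcon
    have hall : ∀ x : F, x = 0 ∨ x = 1 := by
      intro x
      by_contra hx
      exact hcon ⟨x, fun h => hx (Or.inl h), fun h => hx (Or.inr h)⟩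
    have hsub : (Finset.univ : Finset F) ⊆ {0, 1} := by
      intro x _
      rcases hall x with h | h
      · simp [h]
      · simp [h]
    have hcard := Finset.card_le_card hsub
    rw [Finset.card_univ, hF] at hcard
    have h2 : ({0, 1} : Finset F).card ≤ 2 := Finset.card_le_two
    omega
  obtain ⟨x, hx0, hx1⟩ := hex
  refine ⟨x, ?_⟩
  have h3 := SNORM_cube hF hx0
  have h : (x - 1) * (x ^ 2 + x + 1) = 0 := by
    have e : (x - 1) * (x ^ 2 + x + 1) = x ^ 3 - 1 := by ring
    rw [e, h3, sub_self]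
  rcases mul_eq_zero.mp h with h | h
  · exact absurd (sub_eq_zero.mp h) hx1
  · exact h

/-! ### closure properties of `bS` -/

theorem SNORM_diag (d : F) :
    Matrix.diagonal ![1, d, d ^ 2] = !![1, 0, 0; 0, d, 0; 0, 0, d ^ 2] := by
  ext i j
  fin_cases i <;> fin_cases j <;> simp

theorem SNORM_Y2 : bY F ^ 2 = !![0, 1, 0; 0, 0, 1; 1, 0, 0] := by
  rw [pow_two]
  ext i j
  fin_cases i <;> fin_cases j <;> simp [bY, Matrix.mul_apply, Fin.sum_univ_three]

theorem SNORM_YD (hF : Fintype.card F = 4) {d : F} (hd : d ≠ 0) :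
    bY F * Matrix.diagonal ![1, d, d ^ 2]
      = (d ^ 2) • (Matrix.diagonal ![1, d, d ^ 2] * bY F) := by
  have h3 := SNORM_cube hF hd
  have h4 := SNORM_pow4 hF d
  rw [SNORM_diag]
  ext i j
  fin_cases i <;> fin_cases j <;>
    simp [bY, Matrix.mul_apply, Fin.sum_univ_three]
  · linear_combination -h3
  · linear_combination -h4

theorem SNORM_YpowD (hF : Fintype.card F = 4) {d : F} (hd : d ≠ 0) (k : ℕ) :
    bY F ^ k * Matrix.diagonal ![1, d, d ^ 2]
      = ((d ^ 2) ^ k) • (Matrix.diagonal ![1, d, d ^ 2] * bY F ^ k) := by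
  induction k with
  | zero => simp
  | succ k ih =>
    calc bY F ^ (k + 1) * Matrix.diagonal ![1, d, d ^ 2]
        = bY F ^ k * (bY F * Matrix.diagonal ![1, d, d ^ 2]) := by
          rw [pow_succ, Matrix.mul_assoc]
      _ = (d ^ 2) • ((bY F ^ k * Matrix.diagonal ![1, d, d ^ 2]) * bY F) := by
          rw [SNORM_YD hF hd, Matrix.mul_smul, Matrix.mul_assoc]
      _ = ((d ^ 2) ^ (k + 1)) • (Matrix.diagonal ![1, d, d ^ 2] * bY F ^ (k + 1)) := by
          rw [ih, Matrix.smul_mul, smul_smul, Matrix.mul_assoc, ← pow_succ, ← pow_succ']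

theorem SNORM_mul (hF : Fintype.card F = 4) {M M' : Matrix (Fin 3) (Fin 3) F}
    (hM : M ∈ bS F) (hM' : M' ∈ bS F) : M * M' ∈ bS F := by
  obtain ⟨c, d, k, hc, hd, rfl⟩ := hM
  obtain ⟨c', d', k', hc', hd', rfl⟩ := hM'
  refine ⟨c * c' * (d' ^ 2) ^ k, d * d', k + k', ?_, mul_ne_zero hd hd', ?_⟩
  · exact mul_ne_zero (mul_ne_zero hc hc') (pow_ne_zero _ (pow_ne_zero _ hd'))
  · have hDD : Matrix.diagonal ![1, d, d ^ 2] * Matrix.diagonal ![1, d', d' ^ 2]
        = Matrix.diagonal ![1, d * d', (d * d') ^ 2] := by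
      rw [Matrix.diagonal_mul_diagonal]
      congr 1
      funext i
      fin_cases i <;> simp [mul_pow]
    calc c • (Matrix.diagonal ![1, d, d ^ 2] * bY F ^ k)
          * c' • (Matrix.diagonal ![1, d', d' ^ 2] * bY F ^ k')
        = (c * c') • (Matrix.diagonal ![1, d, d ^ 2]
            * (bY F ^ k * Matrix.diagonal ![1, d', d' ^ 2]) * bY F ^ k') := by
          rw [Matrix.smul_mul, Matrix.mul_smul, smul_smul]
          simp only [Matrix.mul_assoc]
      _ = (c * c' * (d' ^ 2) ^ k)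
            • (Matrix.diagonal ![1, d * d', (d * d') ^ 2] * bY F ^ (k + k')) := by
          rw [SNORM_YpowD hF hd', Matrix.mul_smul, Matrix.smul_mul, smul_smul,
            ← Matrix.mul_assoc, hDD, Matrix.mul_assoc, ← pow_add]

theorem SNORM_smul {M : Matrix (Fin 3) (Fin 3) F} (hM : M ∈ bS F) {c : F} (hc : c ≠ 0) :
    c • M ∈ bS F := by
  obtain ⟨c0, d, k, hc0, hd, rfl⟩ := hM
  exact ⟨c * c0, d, k, mul_ne_zero hc hc0, hd, by rw [smul_smul]⟩

theorem SNORM_one : (1 : Matrix (Fin 3) (Fin 3) F) ∈ bS F := by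
  refine ⟨1, 1, 0, one_ne_zero, one_ne_zero, ?_⟩
  rw [pow_zero, mul_one, one_smul, SNORM_diag]
  ext i j
  fin_cases i <;> fin_cases j <;> simp

theorem SNORM_pow (hF : Fintype.card F = 4) {M : Matrix (Fin 3) (Fin 3) F} (hM : M ∈ bS F)
    (k : ℕ) : M ^ k ∈ bS F := by
  induction k with
  | zero => rw [pow_zero]; exact SNORM_one
  | succ k ih => rw [pow_succ]; exact SNORM_mul hF ih hM

/-- a diagonal matrix of determinant `1` lies in `bS` -/
theorem SNORM_memD (hF : Fintype.card F = 4) (a b c : F) (h : a * b * c = 1) :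
    !![a, 0, 0; 0, b, 0; 0, 0, c] ∈ bS F := by
  have ha : a ≠ 0 := by
    rintro rfl
    simp at h
  have hb : b ≠ 0 := by
    rintro rfl
    simp at h
  have hb3 := SNORM_cube hF hb
  have hac : a * c = b ^ 2 := by
    apply mul_left_cancel₀ hb
    linear_combination h - hb3
  refine ⟨a, b / a, 0, ha, div_ne_zero hb ha, ?_⟩
  rw [pow_zero, mul_one, SNORM_diag]
  ext i j
  fin_cases i <;> fin_cases j <;> simp
  · field_simp
  · field_simp
    linear_combination hac

/-- a unitary matrix with zero diagonal and determinant `1` lies in `bS` -/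
theorem SNORM_memZ (hF : Fintype.card F = 4) (p q r s t u : F)
    (hr0 : p ^ 3 + q ^ 3 = 1) (hr1 : r ^ 3 + s ^ 3 = 1) (hr2 : t ^ 3 + u ^ 3 = 1)
    (hc0 : r ^ 3 + t ^ 3 = 1) (hc1 : p ^ 3 + u ^ 3 = 1) (hc2 : q ^ 3 + s ^ 3 = 1)
    (hdet : p * s * t + q * r * u = 1) : !![0, p, q; r, 0, s; t, u, 0] ∈ bS F := by
  have hz : ∀ x : F, x ^ 3 = 0 → x = 0 := fun x hx => (pow_eq_zero_iff (by norm_num)).mp hx
  by_cases hr : r = 0
  · subst hr
    have ht3 : t ^ 3 = 1 := by simpa using hc0
    have hs3 : s ^ 3 = 1 := by simpa using hr1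
    have hq : q = 0 := hz q (by linear_combination hc2 - hs3)
    subst hq
    have hp3 : p ^ 3 = 1 := by simpa using hr0
    have hu : u = 0 := hz u (by linear_combination hc1 - hp3)
    subst hu
    have hdet' : p * s * t = 1 := by simpa using hdet
    have hp : p ≠ 0 := by
      rintro rfl
      simp at hp3
    have hs : s ≠ 0 := by
      rintro rfl
      simp at hs3
    have hpt : p * t = s ^ 2 := by
      apply mul_left_cancel₀ hs
      linear_combination hdet' - hs3
    refine ⟨p, s / p, 2, hp, div_ne_zero hs hp, ?_⟩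
    rw [SNORM_Y2, SNORM_diag]
    ext i j
    fin_cases i <;> fin_cases j <;> simp [Matrix.mul_apply, Fin.sum_univ_three]
    · field_simp
    · field_simp
      linear_combination hpt
  · have hr3 := SNORM_cube hF hr
    have ht : t = 0 := hz t (by linear_combination hc0 - hr3)
    subst ht
    have hu3 : u ^ 3 = 1 := by simpa using hr2
    have hp : p = 0 := hz p (by linear_combination hc1 - hu3)
    subst hp
    have hq3 : q ^ 3 = 1 := by simpa using hr0
    have hs : s = 0 := hz s (by linear_combination hc2 - hq3)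
    subst hs
    have hdet' : q * r * u = 1 := by simpa using hdet
    have hq : q ≠ 0 := by
      rintro rfl
      simp at hq3
    have hqu : q * u = r ^ 2 := by
      apply mul_left_cancel₀ hr
      linear_combination hdet' - hr3
    refine ⟨q, r / q, 1, hq, div_ne_zero hr hq, ?_⟩
    rw [pow_one, SNORM_diag]
    ext i j
    fin_cases i <;> fin_cases j <;> simp [bY, Matrix.mul_apply, Fin.sum_univ_three]
    · field_simp
    · field_simp
      linear_combination hqu

/-! ### unitary matrices -/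

/-- the Frobenius of the field with 4 elements -/
def SNORM_sig (hF : Fintype.card F = 4) : F →+* F where
  toFun x := x ^ 2
  map_one' := one_pow 2
  map_mul' x y := mul_pow x y 2
  map_zero' := by simp
  map_add' x y := by
    show (x + y) ^ 2 = x ^ 2 + y ^ 2
    have h := SNORM_two hF
    have e : (x + y) ^ 2 = x ^ 2 + y ^ 2 + 2 * (x * y) := by ring
    rw [e, h, zero_mul, add_zero]

theorem SNORM_sig_apply (hF : Fintype.card F = 4) (x : F) : SNORM_sig hF x = x ^ 2 := rfl

/-- a vector of norm `1` has one or three non-zero coordinates -/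
theorem SNORM_full (hF : Fintype.card F = 4) (x y z : F) (hn : x ^ 3 + y ^ 3 + z ^ 3 = 1) :
    (x ≠ 0 ∧ y ≠ 0 ∧ z ≠ 0) ∨ (x ≠ 0 ∧ y = 0 ∧ z = 0) ∨ (x = 0 ∧ y ≠ 0 ∧ z = 0) ∨
      (x = 0 ∧ y = 0 ∧ z ≠ 0) := by
  by_cases hx : x = 0 <;> by_cases hy : y = 0 <;> by_cases hz : z = 0
  · exfalso
    subst hx hy hz
    exact one_ne_zero (α := F) (by linear_combination -hn)
  · exact Or.inr (Or.inr (Or.inr ⟨hx, hy, hz⟩))
  · exact Or.inr (Or.inr (Or.inl ⟨hx, hy, hz⟩))
  · exfalso
    have hy3 := SNORM_cube hF hy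
    have hz3 := SNORM_cube hF hz
    subst hx
    exact one_ne_zero (α := F) (by linear_combination hn - hy3 - hz3)
  · exact Or.inr (Or.inl ⟨hx, hy, hz⟩)
  · exfalso
    have hx3 := SNORM_cube hF hx
    have hz3 := SNORM_cube hF hz
    subst hy
    exact one_ne_zero (α := F) (by linear_combination hn - hx3 - hz3)
  · exfalso
    have hx3 := SNORM_cube hF hx
    have hy3 := SNORM_cube hF hy
    subst hz
    exact one_ne_zero (α := F) (by linear_combination hn - hx3 - hy3)
  · exact Or.inl ⟨hx, hy, hz⟩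

/-- the rows of a unitary matrix are all full or have pairwise disjoint supports -/
theorem SNORM_dich (hF : Fintype.card F = 4) (g : Matrix (Fin 3) (Fin 3) F)
    (hrow : ∀ a b, g a 0 * g b 0 ^ 2 + g a 1 * g b 1 ^ 2 + g a 2 * g b 2 ^ 2
      = if a = b then 1 else 0) :
    (∀ a i, g a i ≠ 0) ∨ (∀ a b, a ≠ b → ∀ i, g a i * g b i ^ 2 = 0) := by
  have hcl : ∀ a, (g a 0 ≠ 0 ∧ g a 1 ≠ 0 ∧ g a 2 ≠ 0) ∨ (g a 0 ≠ 0 ∧ g a 1 = 0 ∧ g a 2 = 0) ∨
      (g a 0 = 0 ∧ g a 1 ≠ 0 ∧ g a 2 = 0) ∨ (g a 0 = 0 ∧ g a 1 = 0 ∧ g a 2 ≠ 0) := by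
    intro a
    apply SNORM_full hF
    have h := hrow a a
    rw [if_pos rfl] at h
    linear_combination h
  have claim1 : ∀ a c, a ≠ c → (g a 0 ≠ 0 ∧ g a 1 ≠ 0 ∧ g a 2 ≠ 0) →
      (g c 0 ≠ 0 ∧ g c 1 ≠ 0 ∧ g c 2 ≠ 0) := by
    intro a c hac ha
    have h1 := hrow c a
    rw [if_neg (Ne.symm hac)] at h1
    rcases hcl c with h | h | h | h
    · exact h
    · exfalso
      rw [h.2.1, h.2.2] at h1
      simp at h1
      rcases h1 with h1 | h1
      · exact h.1 h1
      · exact ha.1 h1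
    · exfalso
      rw [h.1, h.2.2] at h1
      simp at h1
      rcases h1 with h1 | h1
      · exact h.2.1 h1
      · exact ha.2.1 h1
    · exfalso
      rw [h.1, h.2.1] at h1
      simp at h1
      rcases h1 with h1 | h1
      · exact h.2.2 h1
      · exact ha.2.2 h1
  have claim2 : ∀ a b, a ≠ b → ¬ (g a 0 ≠ 0 ∧ g a 1 ≠ 0 ∧ g a 2 ≠ 0) →
      ∀ i, g a i * g b i ^ 2 = 0 := by
    intro a b hab hna i
    have h1 := hrow a b
    rw [if_neg hab] at h1
    rcases hcl a with h | h | h | h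
    · exact absurd h hna
    · rw [h.2.1, h.2.2] at h1
      fin_cases i
      · simpa using h1
      · simp [h.2.1]
      · simp [h.2.2]
    · rw [h.1, h.2.2] at h1
      fin_cases i
      · simp [h.1]
      · simpa using h1
      · simp [h.2.2]
    · rw [h.1, h.2.1] at h1
      fin_cases i
      · simp [h.1]
      · simp [h.2.1]
      · simpa using h1
  by_cases hf : ∃ a, (g a 0 ≠ 0 ∧ g a 1 ≠ 0 ∧ g a 2 ≠ 0)
  · obtain ⟨a, ha⟩ := hf
    left
    intro c i
    have hc : g c 0 ≠ 0 ∧ g c 1 ≠ 0 ∧ g c 2 ≠ 0 := by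
      by_cases hac : a = c
      · rw [← hac]
        exact ha
      · exact claim1 a c hac ha
    fin_cases i
    · exact hc.1
    · exact hc.2.1
    · exact hc.2.2
  · right
    intro a b hab
    exact claim2 a b hab (fun h => hf ⟨a, h⟩)

/-- a unitary matrix conjugates `diag(1, w, w²)` (`w` a primitive cube root of unity) into `bS` -/
theorem SNORM_conjD (hF : Fintype.card F = 4) {w : F} (hw : w ^ 2 + w + 1 = 0)
    {g : Matrix (Fin 3) (Fin 3) F} (hg : g ∈ bU F 2) :
    ∃ N ∈ bS F, g * Matrix.diagonal ![1, w, w ^ 2] = N * g := by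
  classical
  have hU1 : gᵀ * g.map (SNORM_sig hF) = 1 := hg
  have hU2 : g.map (SNORM_sig hF) * gᵀ = 1 := mul_eq_one_comm.mp hU1
  have hU4 : g * (g.map (SNORM_sig hF))ᵀ = 1 := by
    have h := congrArg Matrix.transpose hU2
    rw [Matrix.transpose_mul, Matrix.transpose_transpose, Matrix.transpose_one] at h
    exact h
  have hU3 : (g.map (SNORM_sig hF))ᵀ * g = 1 := mul_eq_one_comm.mp hU4
  have hrow : ∀ a b, g a 0 * g b 0 ^ 2 + g a 1 * g b 1 ^ 2 + g a 2 * g b 2 ^ 2
      = if a = b then 1 else 0 := by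
    intro a b
    have h := congrFun (congrFun hU4 a) b
    rw [Matrix.mul_apply, Fin.sum_univ_three, Matrix.one_apply] at h
    simpa [SNORM_sig_apply] using h
  have hw3 : w ^ 3 = 1 := by linear_combination (w - 1) * hw
  have hw4 : w ^ 4 = w := SNORM_pow4 hF w
  obtain ⟨X, hX⟩ : ∃ X : Matrix (Fin 3) (Fin 3) F, X = Matrix.diagonal ![1, w, w ^ 2] :=
    ⟨_, rfl⟩
  rw [← hX]
  obtain ⟨N, hN⟩ : ∃ N : Matrix (Fin 3) (Fin 3) F,
      N = g * X * (g.map (SNORM_sig hF))ᵀ := ⟨_, rfl⟩
  have hNg : N * g = g * X := by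
    rw [hN, Matrix.mul_assoc, hU3, Matrix.mul_one]
  have hNe : ∀ a b, N a b = g a 0 * g b 0 ^ 2 + w * (g a 1 * g b 1 ^ 2)
      + w ^ 2 * (g a 2 * g b 2 ^ 2) := by
    intro a b
    rw [hN, hX, SNORM_diag, Matrix.mul_apply, Fin.sum_univ_three]
    simp [Matrix.mul_apply, Fin.sum_univ_three, SNORM_sig_apply]
    ring
  have hXdet : X.det = 1 := by
    rw [hX, Matrix.det_diagonal, Fin.prod_univ_three]
    simp
    linear_combination hw3
  have hdet : N.det = 1 := by
    rw [hN, Matrix.det_mul, Matrix.det_mul, hXdet, mul_one, ← Matrix.det_mul, hU4,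
      Matrix.det_one]
  have hsig4 : ∀ x : F, SNORM_sig hF (SNORM_sig hF x) = x := by
    intro x
    rw [SNORM_sig_apply, SNORM_sig_apply, ← pow_mul]
    exact SNORM_pow4 hF x
  have hgmm : (g.map (SNORM_sig hF)).map (SNORM_sig hF) = g := by
    ext i j
    simp [hsig4]
  have hXX : X * (X.map (SNORM_sig hF))ᵀ = 1 := by
    rw [hX, SNORM_diag]
    ext i j
    fin_cases i <;> fin_cases j <;>
      simp [Matrix.mul_apply, Fin.sum_univ_three, SNORM_sig_apply]
    · linear_combination hw3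
    · linear_combination (w ^ 3 + 1) * hw3
  have hNs : (N.map (SNORM_sig hF))ᵀ
      = g * (X.map (SNORM_sig hF))ᵀ * (g.map (SNORM_sig hF))ᵀ := by
    rw [hN, Matrix.map_mul, Matrix.map_mul, Matrix.transpose_map, hgmm, Matrix.transpose_mul,
      Matrix.transpose_mul, Matrix.transpose_transpose, Matrix.mul_assoc]
  have hNN : N * (N.map (SNORM_sig hF))ᵀ = 1 := by
    rw [hNs, hN]
    calc g * X * (g.map (SNORM_sig hF))ᵀ
          * (g * (X.map (SNORM_sig hF))ᵀ * (g.map (SNORM_sig hF))ᵀ)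
        = g * (X * (((g.map (SNORM_sig hF))ᵀ * g)
            * ((X.map (SNORM_sig hF))ᵀ * (g.map (SNORM_sig hF))ᵀ))) := by
          simp only [Matrix.mul_assoc]
      _ = g * ((X * (X.map (SNORM_sig hF))ᵀ) * (g.map (SNORM_sig hF))ᵀ) := by
          rw [hU3, Matrix.one_mul, Matrix.mul_assoc]
      _ = 1 := by rw [hXX, Matrix.one_mul, hU4]
  have hNN' : (N.map (SNORM_sig hF))ᵀ * N = 1 := mul_eq_one_comm.mp hNN
  have hNrow : ∀ a, N a 0 ^ 3 + N a 1 ^ 3 + N a 2 ^ 3 = 1 := by
    intro a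
    have h := congrFun (congrFun hNN a) a
    rw [Matrix.mul_apply, Fin.sum_univ_three, Matrix.one_apply_eq] at h
    simp [SNORM_sig_apply] at h
    linear_combination h
  have hNcol : ∀ j, N 0 j ^ 3 + N 1 j ^ 3 + N 2 j ^ 3 = 1 := by
    intro j
    have h := congrFun (congrFun hNN' j) j
    rw [Matrix.mul_apply, Fin.sum_univ_three, Matrix.one_apply_eq] at h
    simp [SNORM_sig_apply] at h
    linear_combination h
  rcases SNORM_dich hF g hrow with hfull | hdis
  · have hdiag : ∀ a, N a a = 0 := by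
      intro a
      have h0 := SNORM_cube hF (hfull a 0)
      have h1 := SNORM_cube hF (hfull a 1)
      have h2 := SNORM_cube hF (hfull a 2)
      rw [hNe]
      linear_combination h0 + w * h1 + w ^ 2 * h2 + hw
    have hNform : N = !![0, N 0 1, N 0 2; N 1 0, 0, N 1 2; N 2 0, N 2 1, 0] := by
      ext i j
      fin_cases i <;> fin_cases j <;> simp [hdiag]
    refine ⟨N, ?_, hNg.symm⟩
    rw [hNform]
    exact SNORM_memZ hF _ _ _ _ _ _
      (by have h := hNrow 0; rw [hdiag 0] at h; linear_combination h)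
      (by have h := hNrow 1; rw [hdiag 1] at h; linear_combination h)
      (by have h := hNrow 2; rw [hdiag 2] at h; linear_combination h)
      (by have h := hNcol 0; rw [hdiag 0] at h; linear_combination h)
      (by have h := hNcol 1; rw [hdiag 1] at h; linear_combination h)
      (by have h := hNcol 2; rw [hdiag 2] at h; linear_combination h)
      (by
        have h := hdet
        rw [Matrix.det_fin_three, hdiag 0, hdiag 1, hdiag 2] at h
        linear_combination h)
  · have hoff : ∀ a b, a ≠ b → N a b = 0 := by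
      intro a b hab
      rw [hNe, hdis a b hab 0, hdis a b hab 1, hdis a b hab 2]
      ring
    have hNform : N = !![N 0 0, 0, 0; 0, N 1 1, 0; 0, 0, N 2 2] := by
      ext i j
      fin_cases i <;> fin_cases j <;> simp
      · exact hoff 0 1 (by decide)
      · exact hoff 0 2 (by decide)
      · exact hoff 1 0 (by decide)
      · exact hoff 1 2 (by decide)
      · exact hoff 2 0 (by decide)
      · exact hoff 2 1 (by decide)
    refine ⟨N, ?_, hNg.symm⟩
    rw [hNform]
    apply SNORM_memD hF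
    have h := hdet
    rw [Matrix.det_fin_three, hoff 0 1 (by decide), hoff 0 2 (by decide), hoff 1 0 (by decide),
      hoff 1 2 (by decide), hoff 2 0 (by decide), hoff 2 1 (by decide)] at h
    linear_combination h

/-- SNORM: every unitary matrix normalises `bS`. -/
theorem SNORM (hF : Fintype.card F = 4) : SNORMp F := by
  classical
  obtain ⟨w, hw⟩ := SNORM_omega hF
  have hw3 : w ^ 3 = 1 := by linear_combination (w - 1) * hw
  have hw4 : w ^ 4 = w := SNORM_pow4 hF w
  have h2 : (2 : F) = 0 := SNORM_two hF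
  intro g hg M hM
  -- conjugation of `D(d)`
  have hD : ∀ d : F, d ≠ 0 → ∃ N ∈ bS F, g * Matrix.diagonal ![1, d, d ^ 2] = N * g := by
    intro d hd
    have hd3 := SNORM_cube hF hd
    have h : (d - 1) * (d ^ 2 + d + 1) = 0 := by
      have e : (d - 1) * (d ^ 2 + d + 1) = d ^ 3 - 1 := by ring
      rw [e, hd3, sub_self]
    rcases mul_eq_zero.mp h with h | h
    · have hd1 : d = 1 := sub_eq_zero.mp h
      refine ⟨1, SNORM_one, ?_⟩
      have e : Matrix.diagonal ![1, d, d ^ 2] = (1 : Matrix (Fin 3) (Fin 3) F) := by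
        rw [hd1, SNORM_diag]
        ext i j
        fin_cases i <;> fin_cases j <;> simp
      rw [e, Matrix.mul_one, Matrix.one_mul]
    · exact SNORM_conjD hF h hg
  -- conjugation of `bY` through the Fourier matrix
  have hY : ∃ N ∈ bS F, g * bY F = N * g := by
    obtain ⟨Φ, hΦ⟩ : ∃ Φ : Matrix (Fin 3) (Fin 3) F,
        Φ = !![1, 1, 1; 1, w, w ^ 2; 1, w ^ 2, w] := ⟨_, rfl⟩
    have hΦU : Φᵀ * Φ.map (SNORM_sig hF) = 1 := by
      rw [hΦ]
      ext i j
      fin_cases i <;> fin_cases j <;>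
        simp [Matrix.mul_apply, Fin.sum_univ_three, SNORM_sig_apply]
      · linear_combination h2
      · linear_combination hw + hw4
      · linear_combination hw + hw4
      · linear_combination hw
      · linear_combination (w ^ 3 + 2) * hw3 + h2
      · linear_combination hw + (w ^ 2 + w) * hw3
      · linear_combination hw
      · linear_combination hw + (w ^ 2 + w) * hw3
      · linear_combination (w ^ 3 + 2) * hw3 + h2
    have hYΦ : bY F * Φ = Φ * Matrix.diagonal ![1, w ^ 2, (w ^ 2) ^ 2] := by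
      rw [hΦ, SNORM_diag]
      ext i j
      fin_cases i <;> fin_cases j <;>
        simp [bY, Matrix.mul_apply, Fin.sum_univ_three]
      · linear_combination -hw4
      · linear_combination -hw3
      · linear_combination -(w ^ 3 + 1) * hw3
      · linear_combination -hw4
      · linear_combination -(w ^ 2) * hw3
    have hgΦ : g * Φ ∈ bU F 2 := by
      show (g * Φ)ᵀ * (g * Φ).map (SNORM_sig hF) = 1
      have hU1 : gᵀ * g.map (SNORM_sig hF) = 1 := hg
      rw [Matrix.transpose_mul, Matrix.map_mul]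
      calc Φᵀ * gᵀ * (g.map (SNORM_sig hF) * Φ.map (SNORM_sig hF))
          = Φᵀ * ((gᵀ * g.map (SNORM_sig hF)) * Φ.map (SNORM_sig hF)) := by
            simp only [Matrix.mul_assoc]
        _ = 1 := by rw [hU1, Matrix.one_mul, hΦU]
    have hw2 : (w ^ 2) ^ 2 + w ^ 2 + 1 = 0 := by linear_combination hw + hw4
    obtain ⟨N, hN, hNe⟩ := SNORM_conjD hF hw2 hgΦ
    refine ⟨N, hN, ?_⟩
    have h1 : g * bY F * Φ = N * g * Φ := by
      calc g * bY F * Φ = g * (bY F * Φ) := Matrix.mul_assoc _ _ _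
        _ = g * Φ * Matrix.diagonal ![1, w ^ 2, (w ^ 2) ^ 2] := by
            rw [hYΦ, Matrix.mul_assoc]
        _ = N * (g * Φ) := hNe
        _ = N * g * Φ := (Matrix.mul_assoc _ _ _).symm
    have hΦinv : Φ * (Φ.map (SNORM_sig hF))ᵀ = 1 := by
      have h2 : Φ.map (SNORM_sig hF) * Φᵀ = 1 := mul_eq_one_comm.mp hΦU
      have h3 := congrArg Matrix.transpose h2
      rw [Matrix.transpose_mul, Matrix.transpose_transpose, Matrix.transpose_one] at h3
      exact h3
    calc g * bY F = g * bY F * (Φ * (Φ.map (SNORM_sig hF))ᵀ) := by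
          rw [hΦinv, Matrix.mul_one]
      _ = (g * bY F * Φ) * (Φ.map (SNORM_sig hF))ᵀ := (Matrix.mul_assoc _ _ _).symm
      _ = (N * g * Φ) * (Φ.map (SNORM_sig hF))ᵀ := by rw [h1]
      _ = N * g := by rw [Matrix.mul_assoc, hΦinv, Matrix.mul_one]
  -- assembly
  obtain ⟨c, d, k, hc, hd, rfl⟩ := hM
  obtain ⟨Nd, hNd, hNde⟩ := hD d hd
  obtain ⟨Ny, hNy, hNye⟩ := hY
  have hpow : ∀ k : ℕ, g * bY F ^ k = Ny ^ k * g := by
    intro k
    induction k with
    | zero => simp
    | succ k ih =>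
      calc g * bY F ^ (k + 1) = (g * bY F ^ k) * bY F := by rw [pow_succ, Matrix.mul_assoc]
        _ = Ny ^ k * (g * bY F) := by rw [ih, Matrix.mul_assoc]
        _ = Ny ^ (k + 1) * g := by rw [hNye, ← Matrix.mul_assoc, ← pow_succ]
  refine ⟨c • (Nd * Ny ^ k), SNORM_smul (SNORM_mul hF hNd (SNORM_pow hF hNy k)) hc, ?_⟩
  calc g * c • (Matrix.diagonal ![1, d, d ^ 2] * bY F ^ k)
      = c • ((g * Matrix.diagonal ![1, d, d ^ 2]) * bY F ^ k) := by
        rw [Matrix.mul_smul, Matrix.mul_assoc]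
    _ = c • (Nd * (g * bY F ^ k)) := by rw [hNde, Matrix.mul_assoc]
    _ = c • (Nd * Ny ^ k) * g := by rw [hpow, Matrix.smul_mul, Matrix.mul_assoc]

end Cfsg.Agent.Lib.Helper44.BAD
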