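import Mathlib
import Cfsg.Prelude.Def_GeometricClasses
import Cfsg.Prelude.Def_LieClassical
import Cfsg.Agent.Lib.Helper7.SUOrder
import Cfsg.Agent.Lib.Helper53.Hilbert90

/-!
# SUP piece U8a (helper89): the hermitian form is rational, up to a scalar, on a rational
structure of an absolutely irreducible subgroup of `GU` (Schur's lemma + Hilbert 90).
-/

set_option autoImplicit false

namespace Cfsg.Agent.Lib.Helper89.SUPU8a

open Matrix Cfsg.Geo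

variable {n : ℕ} {F : Type*} [Field F] [Fintype F] {q : ℕ}

/-- the hermitian form after a change of basis, through its Gram matrix -/
private theorem u8a_form (hF : Fintype.card F = q ^ 2) (C : Matrix (Fin n) (Fin n) F)
    (u v : Fin n → F) :
    Cfsg.hermForm n F q (C *ᵥ u) (C *ᵥ v) =
      u ⬝ᵥ ((Cᵀ * C.map (· ^ q)) *ᵥ (fun i => (v i) ^ q)) := by
  have h1 : (fun i => ((C *ᵥ v) i) ^ q) = C.map (· ^ q) *ᵥ (fun i => (v i) ^ q) := by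
    funext i
    exact RingHom.map_mulVec (Cfsg.Agent.Lib.Helper7.frobq hF) C v i
  have h2 : Cfsg.hermForm n F q (C *ᵥ u) (C *ᵥ v) =
      (C *ᵥ u) ⬝ᵥ (fun i => ((C *ᵥ v) i) ^ q) := rfl
  rw [h2, h1, ← Matrix.mulVec_mulVec, Matrix.dotProduct_mulVec u Cᵀ, Matrix.vecMul_transpose]

omit [Fintype F] in
/-- a value of a `τ`-fixed matrix on `τ`-fixed vectors is `τ`-fixed -/
private theorem u8a_fixed (τ : F ≃+* F) (G : Matrix (Fin n) (Fin n) F) (hG : G.map τ = G)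
    (u w : Fin n → F) (hu : ∀ i, τ (u i) = u i) (hw : ∀ i, τ (w i) = w i) :
    τ (u ⬝ᵥ (G *ᵥ w)) = u ⬝ᵥ (G *ᵥ w) := by
  have h1 := RingHom.map_dotProduct (τ : F →+* F) u (G *ᵥ w)
  have h2 : ((τ : F →+* F) : F → F) ∘ (G *ᵥ w) = G *ᵥ w := by
    funext i
    have h3 := RingHom.map_mulVec (τ : F →+* F) G w i
    have h4 : ((τ : F →+* F) : F → F) ∘ w = w := funext hw
    have h5 : G.map ((τ : F →+* F) : F → F) = G := hG
    rw [h4, h5] at h3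
    exact h3
  have h6 : ((τ : F →+* F) : F → F) ∘ u = u := funext hu
  rw [h2, h6] at h1
  exact h1

/-- the commutation identity, in a monoid -/
private theorem u8a_alg {M : Type*} [Monoid M] (yT yT' Γ Δ Γ' sy : M)
    (h5 : yT' * yT = 1) (hΓΔ : Γ * Δ = 1) (hΔΓ : Δ * Γ = 1)
    (h1 : yT * Γ * sy = Γ) (h2 : yT * Γ' * sy = Γ') :
    (Γ' * Δ) * yT = yT * (Γ' * Δ) := by
  have h7 : Γ * sy = yT' * Γ := by
    calc Γ * sy = (yT' * yT) * Γ * sy := by rw [h5, one_mul]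
      _ = yT' * (yT * Γ * sy) := by simp only [mul_assoc]
      _ = yT' * Γ := by rw [h1]
  have h6 : sy * Δ * yT = Δ := by
    calc sy * Δ * yT = (Δ * Γ) * sy * Δ * yT := by rw [hΔΓ, one_mul]
      _ = Δ * (Γ * sy) * Δ * yT := by simp only [mul_assoc]
      _ = Δ * (yT' * Γ) * Δ * yT := by rw [h7]
      _ = Δ * yT' * (Γ * Δ) * yT := by simp only [mul_assoc]
      _ = Δ * (yT' * yT) := by rw [hΓΔ, mul_one, mul_assoc]
      _ = Δ := by rw [h5, mul_one]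
  calc (Γ' * Δ) * yT = (yT * Γ' * sy) * Δ * yT := by rw [h2]
    _ = yT * Γ' * (sy * Δ * yT) := by simp only [mul_assoc]
    _ = yT * (Γ' * Δ) := by rw [h6, mul_assoc]

private theorem u8a_alg2 {M : Type*} [Monoid M] (Bm Cm x Mt : M) (hCB : Cm * Bm = 1)
    (h : (Bm * x * Cm) * Mt = Mt * (Bm * x * Cm)) :
    (Cm * Mt * Bm) * x = x * (Cm * Mt * Bm) := by
  calc (Cm * Mt * Bm) * x = Cm * (Mt * (Bm * x * Cm)) * Bm := by
        simp only [mul_assoc]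
        rw [hCB, mul_one]
    _ = Cm * ((Bm * x * Cm) * Mt) * Bm := by rw [h]
    _ = (Cm * Bm) * x * (Cm * Mt * Bm) := by simp only [mul_assoc]
    _ = x * (Cm * Mt * Bm) := by rw [hCB, one_mul]

omit [Fintype F] in
private theorem u8a_transpose_comm (M y : Matrix (Fin n) (Fin n) F)
    (h : M * yᵀ = yᵀ * M) : y * Mᵀ = Mᵀ * y := by
  have h1 := congrArg Matrix.transpose h
  rw [Matrix.transpose_mul, Matrix.transpose_mul, Matrix.transpose_transpose] at h1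
  exact h1

theorem U8a (hF : Fintype.card F = q ^ 2) (hn : 1 ≤ n) (L : Subgroup (GL (Fin n) F))
    (hL : L ≤ Cfsg.GU n F q) (hLa : ActsAbsolutelyIrreducibly (matrixSet L))
    (F₁ : Subfield F) (τ : F ≃+* F) (hfix : ∀ x : F, x ∈ F₁ ↔ τ x = x) (B : GL (Fin n) F)
    (hB : ∀ s ∈ matrixSet L, ∀ i j, (B.1 * s * (B⁻¹ : GL (Fin n) F).1) i j ∈ F₁) :
    ∃ ζ : F, ζ ≠ 0 ∧ IsFormRationalStructure (Cfsg.hermForm n F q) F₁ ζ B⁻¹ := by
  classical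
  obtain ⟨Bm, hBm⟩ : ∃ Bm : Matrix (Fin n) (Fin n) F, Bm = B.1 := ⟨_, rfl⟩
  obtain ⟨Cm, hCm⟩ : ∃ Cm : Matrix (Fin n) (Fin n) F, Cm = (B⁻¹ : GL (Fin n) F).1 := ⟨_, rfl⟩
  have hBC : Bm * Cm = 1 := by
    rw [hBm, hCm, ← Units.val_mul, mul_inv_cancel, Units.val_one]
  have hCB : Cm * Bm = 1 := by
    rw [hBm, hCm, ← Units.val_mul, inv_mul_cancel, Units.val_one]
  have hB' : ∀ x ∈ L, ∀ i j, (Bm * x.1 * Cm) i j ∈ F₁ := by
    intro x hx i j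
    rw [hBm, hCm]
    exact hB x.1 ⟨x, hx, rfl⟩ i j
  have hSmul : ∀ X Y : Matrix (Fin n) (Fin n) F,
      (X * Y).map (· ^ q) = X.map (· ^ q) * Y.map (· ^ q) :=
    fun X Y => Matrix.map_mul (f := Cfsg.Agent.Lib.Helper7.frobq hF)
  have hSone : (1 : Matrix (Fin n) (Fin n) F).map (· ^ q) = 1 :=
    Matrix.map_one _ (map_zero (Cfsg.Agent.Lib.Helper7.frobq hF))
      (map_one (Cfsg.Agent.Lib.Helper7.frobq hF))
  have hTmul : ∀ X Y : Matrix (Fin n) (Fin n) F, (X * Y).map τ = X.map τ * Y.map τ :=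
    fun X Y => Matrix.map_mul (f := τ)
  have hTS : ∀ X : Matrix (Fin n) (Fin n) F,
      (X.map (· ^ q)).map τ = (X.map τ).map (· ^ q) := by
    intro X
    ext i j
    simp only [Matrix.map_apply, map_pow]
  obtain ⟨Γ, hΓ⟩ : ∃ Γ : Matrix (Fin n) (Fin n) F, Γ = Cmᵀ * Cm.map (· ^ q) := ⟨_, rfl⟩
  obtain ⟨Δ, hΔ⟩ : ∃ Δ : Matrix (Fin n) (Fin n) F, Δ = Bm.map (· ^ q) * Bmᵀ := ⟨_, rfl⟩
  have e1 : Bmᵀ * Cmᵀ = 1 := by rw [← Matrix.transpose_mul, hCB, Matrix.transpose_one]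
  have e2 : Cm.map (· ^ q) * Bm.map (· ^ q) = 1 := by rw [← hSmul, hCB, hSone]
  have hΓΔ : Γ * Δ = 1 := by
    rw [hΓ, hΔ]
    calc Cmᵀ * Cm.map (· ^ q) * (Bm.map (· ^ q) * Bmᵀ)
        = Cmᵀ * ((Cm.map (· ^ q) * Bm.map (· ^ q)) * Bmᵀ) := by simp only [Matrix.mul_assoc]
      _ = Cmᵀ * Bmᵀ := by rw [e2, Matrix.one_mul]
      _ = 1 := by rw [← Matrix.transpose_mul, hBC, Matrix.transpose_one]
  have hΔΓ : Δ * Γ = 1 := mul_eq_one_comm.mp hΓΔ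
  obtain ⟨Γ', hΓ'⟩ : ∃ Γ' : Matrix (Fin n) (Fin n) F, Γ' = Γ.map τ := ⟨_, rfl⟩
  -- Schur
  have hkey : ∀ x ∈ L, (Cm * (Γ' * Δ)ᵀ * Bm) * x.1 = x.1 * (Cm * (Γ' * Δ)ᵀ * Bm) := by
    intro x hx
    have hxx : x.1 * (x⁻¹ : GL (Fin n) F).1 = 1 := by
      rw [← Units.val_mul, mul_inv_cancel, Units.val_one]
    have hyy' : (Bm * x.1 * Cm) * (Bm * (x⁻¹ : GL (Fin n) F).1 * Cm) = 1 := by
      calc (Bm * x.1 * Cm) * (Bm * (x⁻¹ : GL (Fin n) F).1 * Cm)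
          = Bm * (x.1 * ((Cm * Bm) * ((x⁻¹ : GL (Fin n) F).1 * Cm))) := by
            simp only [Matrix.mul_assoc]
        _ = 1 := by rw [hCB, Matrix.one_mul, ← Matrix.mul_assoc x.1, hxx, Matrix.one_mul, hBC]
    have hxU : x.1ᵀ * x.1.map (· ^ q) = 1 :=
      (Cfsg.Agent.Lib.Helper7.isFr_iff_mul _).mp
        ((Cfsg.Agent.Lib.Helper7.mem_GU_iff_isFr hF x).mp (hL hx))
    have h1 : (Bm * x.1 * Cm)ᵀ * Γ * (Bm * x.1 * Cm).map (· ^ q) = Γ := by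
      rw [hSmul, hSmul, Matrix.transpose_mul, Matrix.transpose_mul, hΓ]
      calc Cmᵀ * (x.1ᵀ * Bmᵀ) * (Cmᵀ * Cm.map (· ^ q)) *
            (Bm.map (· ^ q) * x.1.map (· ^ q) * Cm.map (· ^ q))
          = Cmᵀ * (x.1ᵀ * ((Bmᵀ * Cmᵀ) * ((Cm.map (· ^ q) * Bm.map (· ^ q)) *
              (x.1.map (· ^ q) * Cm.map (· ^ q))))) := by simp only [Matrix.mul_assoc]
        _ = Cmᵀ * ((x.1ᵀ * x.1.map (· ^ q)) * Cm.map (· ^ q)) := by
            rw [e1, e2, Matrix.one_mul, Matrix.one_mul, Matrix.mul_assoc]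
        _ = Cmᵀ * Cm.map (· ^ q) := by rw [hxU, Matrix.one_mul]
    have hyτ : (Bm * x.1 * Cm).map τ = Bm * x.1 * Cm := by
      ext i j
      rw [Matrix.map_apply]
      exact (hfix _).mp (hB' x hx i j)
    have h2 : (Bm * x.1 * Cm)ᵀ * Γ' * (Bm * x.1 * Cm).map (· ^ q) = Γ' := by
      have h4 : ((Bm * x.1 * Cm)ᵀ * Γ * (Bm * x.1 * Cm).map (· ^ q)).map τ = Γ.map τ :=
        congrArg (fun X : Matrix (Fin n) (Fin n) F => X.map τ) h1
      rw [hTmul, hTmul, hTS, hyτ] at h4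
      have h5 : ((Bm * x.1 * Cm)ᵀ).map τ = (Bm * x.1 * Cm)ᵀ := by
        rw [Matrix.transpose_map, hyτ]
      rw [h5, ← hΓ'] at h4
      exact h4
    have h5 : (Bm * (x⁻¹ : GL (Fin n) F).1 * Cm)ᵀ * (Bm * x.1 * Cm)ᵀ = 1 := by
      rw [← Matrix.transpose_mul, hyy', Matrix.transpose_one]
    have h8 := u8a_alg ((Bm * x.1 * Cm)ᵀ) ((Bm * (x⁻¹ : GL (Fin n) F).1 * Cm)ᵀ) Γ Δ Γ'
      ((Bm * x.1 * Cm).map (· ^ q)) h5 hΓΔ hΔΓ h1 h2
    have h9 := u8a_transpose_comm (Γ' * Δ) (Bm * x.1 * Cm) h8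
    exact u8a_alg2 Bm Cm x.1 ((Γ' * Δ)ᵀ) hCB h9
  obtain ⟨c, hc⟩ := hLa.2 (Cm * (Γ' * Δ)ᵀ * Bm) (by
    rintro s ⟨x, hx, rfl⟩
    exact hkey x hx)
  have hMt : (Γ' * Δ)ᵀ = c • (1 : Matrix (Fin n) (Fin n) F) := by
    calc (Γ' * Δ)ᵀ = (Bm * Cm) * (Γ' * Δ)ᵀ * (Bm * Cm) := by
          rw [hBC, Matrix.one_mul, Matrix.mul_one]
      _ = Bm * (Cm * (Γ' * Δ)ᵀ * Bm) * Cm := by simp only [Matrix.mul_assoc]
      _ = c • (1 : Matrix (Fin n) (Fin n) F) := by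
          rw [hc, Matrix.mul_smul, Matrix.mul_one, Matrix.smul_mul, hBC]
  have hM : Γ' * Δ = c • (1 : Matrix (Fin n) (Fin n) F) := by
    have h1 := congrArg Matrix.transpose hMt
    rw [Matrix.transpose_transpose, Matrix.transpose_smul, Matrix.transpose_one] at h1
    exact h1
  have hΓ'c : Γ' = c • Γ := by
    calc Γ' = Γ' * (Δ * Γ) := by rw [hΔΓ, Matrix.mul_one]
      _ = (Γ' * Δ) * Γ := by rw [Matrix.mul_assoc]
      _ = c • Γ := by rw [hM, Matrix.smul_mul, Matrix.one_mul]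
  have hτΓ : ∀ i j, τ (Γ i j) = c * Γ i j := by
    intro i j
    have h1 := congrFun (congrFun hΓ'c i) j
    rw [hΓ'] at h1
    exact h1
  -- `Γ ≠ 0`
  have hn0 : (1 : Matrix (Fin n) (Fin n) F) ≠ 0 := by
    have : Nonempty (Fin n) := ⟨⟨0, by omega⟩⟩
    exact one_ne_zero
  have hΓ0 : Γ ≠ 0 := by
    intro h0
    rw [h0, Matrix.zero_mul] at hΓΔ
    exact hn0 hΓΔ.symm
  obtain ⟨i₀, j₀, hij⟩ : ∃ i j, Γ i j ≠ 0 := by
    by_contra hcon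
    push Not at hcon
    exact hΓ0 (by ext i j; exact hcon i j)
  -- iteration
  have hiter : ∀ k : ℕ, ∀ i j, (τ ^ k) (Γ i j) =
      Cfsg.Agent.Lib.Helper53.H90.nrm τ k c * Γ i j := by
    intro k
    induction k with
    | zero =>
      intro i j
      rw [Cfsg.Agent.Lib.Helper53.H90.nrm_zero, one_mul, pow_zero]
      rfl
    | succ k ih =>
      intro i j
      rw [Cfsg.Agent.Lib.Helper53.H90.pow_succ_apply, ih, map_mul, hτΓ,
        Cfsg.Agent.Lib.Helper53.H90.nrm_succ]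
      ring
  have : Finite (F ≃+* F) :=
    Finite.of_injective (fun e : F ≃+* F => (e : F → F)) DFunLike.coe_injective
  have hr0 : 0 < orderOf τ := orderOf_pos τ
  have hnrm : Cfsg.Agent.Lib.Helper53.H90.nrm τ (orderOf τ) c = 1 := by
    have h1 := hiter (orderOf τ) i₀ j₀
    rw [pow_orderOf_eq_one] at h1
    have h3 : Γ i₀ j₀ = Cfsg.Agent.Lib.Helper53.H90.nrm τ (orderOf τ) c * Γ i₀ j₀ := h1
    have h4 : (Cfsg.Agent.Lib.Helper53.H90.nrm τ (orderOf τ) c - 1) * Γ i₀ j₀ = 0 := by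
      rw [sub_mul, one_mul, ← h3, sub_self]
    rcases mul_eq_zero.mp h4 with h5 | h5
    · exact sub_eq_zero.mp h5
    · exact absurd h5 hij
  obtain ⟨b, hb0, hb⟩ :=
    Cfsg.Agent.Lib.Helper53.H90.exists_fixed_scalar τ (orderOf τ) hr0 rfl c hnrm
  refine ⟨b, hb0, ?_⟩
  intro u v hu hv
  rw [hfix, ← hCm]
  have hG : (b • Γ).map τ = b • Γ := by
    ext i j
    simp only [Matrix.map_apply, Matrix.smul_apply, smul_eq_mul, map_mul]
    rw [hτΓ, ← mul_assoc, mul_comm (τ b) c, hb]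
  have hval : b * Cfsg.hermForm n F q (Cm *ᵥ u) (Cm *ᵥ v) =
      u ⬝ᵥ ((b • Γ) *ᵥ (fun i => (v i) ^ q)) := by
    rw [u8a_form hF Cm u v, ← hΓ, Matrix.smul_mulVec, dotProduct_smul, smul_eq_mul]
  rw [hval]
  exact u8a_fixed τ (b • Γ) hG u _ (fun i => (hfix _).mp (hu i)) (fun i => by
    show τ ((v i) ^ q) = (v i) ^ q
    rw [map_pow, (hfix _).mp (hv i)])

end Cfsg.Agent.Lib.Helper89.SUPU8a
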