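import Mathlib
import Cfsg.Prelude.Def_GeometricClasses
import Cfsg.Prelude.Def_LieClassical

/-!
Project SPP (helper71), piece ADJ: a field subalgebra in the centre of the commutant of a
homogeneous group of isometries of a symplectic form is closed under adjoints.
-/

set_option autoImplicit false

namespace Cfsg.Agent.Lib.Helper89.SPPADJ

open Matrix Cfsg.Geo

variable {n : ℕ} {F : Type*} [Field F] [Fintype F]

/-- `Y` is an adjoint of `X` for the form `f` -/
def AdjP (f : (Fin n → F) → (Fin n → F) → F) (X Y : Matrix (Fin n) (Fin n) F) : Prop :=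
  ∀ u v : Fin n → F, f (X *ᵥ u) v = f u (Y *ᵥ v)

omit [Fintype F] in
theorem adj_gram (b : (Fin n → F) → (Fin n → F) → F) (hb : IsBilinearForm b) :
    ∃ G : Matrix (Fin n) (Fin n) F, ∀ u v, b u v = u ⬝ᵥ (G *ᵥ v) := by
  let B : (Fin n → F) →ₗ[F] (Fin n → F) →ₗ[F] F :=
    LinearMap.mk₂ F b hb.add_left hb.smul_left hb.add_right hb.smul_right
  refine ⟨LinearMap.toMatrix₂' F B, fun u v => ?_⟩
  rw [← Matrix.toLinearMap₂'_apply', Matrix.toLinearMap₂'_toMatrix']
  rfl

omit [Fintype F] in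
theorem adjP_unique {f : (Fin n → F) → (Fin n → F) → F} (hf : IsSymplecticForm f)
    {X Y Y' : Matrix (Fin n) (Fin n) F} (h : AdjP f X Y) (h' : AdjP f X Y') : Y = Y' := by
  apply Matrix.toLin'.injective
  apply LinearMap.ext
  intro v
  rw [Matrix.toLin'_apply, Matrix.toLin'_apply]
  by_contra hne
  have hw : Y *ᵥ v - Y' *ᵥ v ≠ 0 := sub_ne_zero.mpr hne
  obtain ⟨x, hx⟩ := (hf.nondegenerate _ hw).1
  apply hx
  have h1 : Y *ᵥ v - Y' *ᵥ v = Y *ᵥ v + (-1 : F) • (Y' *ᵥ v) := by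
    rw [neg_one_smul, sub_eq_add_neg]
  rw [h1, hf.bilinear.add_right, hf.bilinear.smul_right, ← h x v, ← h' x v]
  ring

omit [Fintype F] in
theorem adjP_symm {f : (Fin n → F) → (Fin n → F) → F} (hf : IsSymplecticForm f)
    {X Y : Matrix (Fin n) (Fin n) F} (h : AdjP f X Y) : AdjP f Y X := by
  intro u v
  rw [hf.skew (Y *ᵥ u) v, ← h v u, hf.skew (X *ᵥ v) u, neg_neg]

omit [Fintype F] in
theorem adjP_mul {f : (Fin n → F) → (Fin n → F) → F} {X Y X' Y' : Matrix (Fin n) (Fin n) F}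
    (h : AdjP f X Y) (h' : AdjP f X' Y') : AdjP f (X * X') (Y' * Y) := by
  intro u v
  rw [← Matrix.mulVec_mulVec, h, h', Matrix.mulVec_mulVec]

omit [Fintype F] in
theorem adjP_add {f : (Fin n → F) → (Fin n → F) → F} (hf : IsBilinearForm f)
    {X Y X' Y' : Matrix (Fin n) (Fin n) F} (h : AdjP f X Y) (h' : AdjP f X' Y') :
    AdjP f (X + X') (Y + Y') := by
  intro u v
  rw [Matrix.add_mulVec, Matrix.add_mulVec, hf.add_left, hf.add_right, h, h']

omit [Fintype F] in
theorem adjP_smul {f : (Fin n → F) → (Fin n → F) → F} (hf : IsBilinearForm f) (c : F)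
    {X Y : Matrix (Fin n) (Fin n) F} (h : AdjP f X Y) : AdjP f (c • X) (c • Y) := by
  intro u v
  rw [Matrix.smul_mulVec, Matrix.smul_mulVec, hf.smul_left, hf.smul_right, h]

omit [Fintype F] in
theorem adjP_one {f : (Fin n → F) → (Fin n → F) → F} : AdjP f 1 1 := by
  intro u v
  rw [Matrix.one_mulVec, Matrix.one_mulVec]

omit [Fintype F] in
theorem adjP_zero {f : (Fin n → F) → (Fin n → F) → F} (hf : IsBilinearForm f) : AdjP f 0 0 := by
  intro u v
  rw [Matrix.zero_mulVec, Matrix.zero_mulVec]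
  have h1 : f 0 v = 0 := by
    have := hf.smul_left 0 0 v
    simpa using this
  have h2 : f u 0 = 0 := by
    have := hf.smul_right 0 u 0
    simpa using this
  rw [h1, h2]

omit [Fintype F] in
theorem adjP_exists {f : (Fin n → F) → (Fin n → F) → F} (hf : IsSymplecticForm f)
    (X : Matrix (Fin n) (Fin n) F) : ∃ Y, AdjP f X Y := by
  obtain ⟨G, hG⟩ := adj_gram f hf.bilinear
  have hGu : IsUnit G := by
    rw [← Matrix.mulVec_injective_iff_isUnit]
    intro a b hab
    by_contra hne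
    obtain ⟨x, hx⟩ := (hf.nondegenerate (a - b) (sub_ne_zero.mpr hne)).1
    apply hx
    rw [hG, Matrix.mulVec_sub, hab, sub_self, dotProduct_zero]
  have hdet : IsUnit G.det := (Matrix.isUnit_iff_isUnit_det G).mp hGu
  refine ⟨G⁻¹ * Xᵀ * G, fun u v => ?_⟩
  rw [hG, hG, Matrix.mulVec_mulVec, ← mul_assoc, ← mul_assoc, Matrix.mul_nonsing_inv G hdet,
    one_mul, ← Matrix.mulVec_mulVec, Matrix.dotProduct_mulVec u Xᵀ (G *ᵥ v),
    Matrix.vecMul_transpose]

omit [Fintype F] in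
theorem adjP_isom {f : (Fin n → F) → (Fin n → F) → F} {L : Subgroup (GL (Fin n) F)}
    (hfix : FixesForm (matrixSet L) f) {x : GL (Fin n) F} (hx : x ∈ L) :
    AdjP f x.1 (x⁻¹ : GL (Fin n) F).1 := by
  intro u v
  have h1 := hfix x.1 ⟨x, hx, rfl⟩ u ((x⁻¹ : GL (Fin n) F).1 *ᵥ v)
  have h2 : x.1 * (x⁻¹ : GL (Fin n) F).1 = 1 := by
    rw [← Units.val_mul, mul_inv_cancel, Units.val_one]
  rw [Matrix.mulVec_mulVec, h2, Matrix.one_mulVec] at h1
  exact h1

/-- ADJ: a field subalgebra in the centre of the commutant of a homogeneous group of isometries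
is closed under adjoints. -/
theorem ADJ (hn : 1 ≤ n) (f : (Fin n → F) → (Fin n → F) → F) (hf : IsSymplecticForm f)
    (L : Subgroup (GL (Fin n) F)) (hfix : FixesForm (matrixSet L) f)
    (hhom : ∀ W : Submodule F (Fin n → F), (∀ x ∈ L, W.map (Matrix.toLin' x.1) ≤ W) →
      (∀ X : Matrix (Fin n) (Fin n) F, (∀ x ∈ L, X * x.1 = x.1 * X) →
        W.map (Matrix.toLin' X) ≤ W) →
      W = ⊥ ∨ W = ⊤)
    (huniq : ∀ Z : Subalgebra F (Matrix (Fin n) (Fin n) F),
      (∀ x ∈ Z, ∀ y ∈ Z, x * y = y * x) → (∀ x ∈ Z, x ≠ 0 → ∃ y ∈ Z, x * y = 1) →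
      ∀ (r : ℕ) (K K' : Subalgebra F (Matrix (Fin n) (Fin n) F)), IsFieldSubalgebra r K →
        IsFieldSubalgebra r K' → K ≤ Z → K' ≤ Z → K = K')
    (r : ℕ) (K : Subalgebra F (Matrix (Fin n) (Fin n) F)) (hK : IsFieldSubalgebra r K)
    (hKc : ∀ z ∈ K, (∀ x ∈ L, z * x.1 = x.1 * z) ∧
      ∀ X : Matrix (Fin n) (Fin n) F, (∀ x ∈ L, X * x.1 = x.1 * X) → z * X = X * z) :
    IsAdjointClosedFor f K := by
  classical
  choose adj hadj using fun X => adjP_exists hf X
  have huq : ∀ {X Y : Matrix (Fin n) (Fin n) F}, AdjP f X Y → adj X = Y :=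
    fun h => adjP_unique hf (hadj _) h
  have adj_adj : ∀ X, adj (adj X) = X := fun X => huq (adjP_symm hf (hadj X))
  have adj_mul : ∀ X X', adj (X * X') = adj X' * adj X :=
    fun X X' => huq (adjP_mul (hadj X) (hadj X'))
  have adj_add : ∀ X X', adj (X + X') = adj X + adj X' :=
    fun X X' => huq (adjP_add hf.bilinear (hadj X) (hadj X'))
  have adj_smul : ∀ (c : F) X, adj (c • X) = c • adj X :=
    fun c X => huq (adjP_smul hf.bilinear c (hadj X))
  have adj_one : adj 1 = 1 := huq adjP_one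
  have adj_zero : adj 0 = 0 := huq (adjP_zero hf.bilinear)
  have adj_L : ∀ x ∈ L, adj x.1 = (x⁻¹ : GL (Fin n) F).1 := fun x hx => huq (adjP_isom hfix hx)
  -- the adjoint preserves the commutant
  have hC : ∀ X : Matrix (Fin n) (Fin n) F, (∀ x ∈ L, X * x.1 = x.1 * X) →
      ∀ x ∈ L, adj X * x.1 = x.1 * adj X := by
    intro X hX x hx
    have h1 := hX x⁻¹ (L.inv_mem hx)
    have h2 := congrArg adj h1
    rw [adj_mul, adj_mul, adj_L _ (L.inv_mem hx), inv_inv] at h2
    exact h2.symm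
  -- the centre of the commutant
  let Zc : Subalgebra F (Matrix (Fin n) (Fin n) F) :=
    { carrier := {z | (∀ x ∈ L, z * x.1 = x.1 * z) ∧
        ∀ X : Matrix (Fin n) (Fin n) F, (∀ x ∈ L, X * x.1 = x.1 * X) → z * X = X * z}
      mul_mem' := by
        rintro a b ⟨ha1, ha2⟩ ⟨hb1, hb2⟩
        refine ⟨fun x hx => ?_, fun X hX => ?_⟩
        · rw [mul_assoc, hb1 x hx, ← mul_assoc, ha1 x hx, mul_assoc]
        · rw [mul_assoc, hb2 X hX, ← mul_assoc, ha2 X hX, mul_assoc]
      add_mem' := by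
        rintro a b ⟨ha1, ha2⟩ ⟨hb1, hb2⟩
        refine ⟨fun x hx => ?_, fun X hX => ?_⟩
        · rw [add_mul, mul_add, ha1 x hx, hb1 x hx]
        · rw [add_mul, mul_add, ha2 X hX, hb2 X hX]
      algebraMap_mem' := by
        intro c
        refine ⟨fun x _ => ?_, fun X _ => ?_⟩
        · exact Algebra.commutes c x.1
        · exact Algebra.commutes c X }
  have hmemZ : ∀ z, z ∈ Zc ↔ (∀ x ∈ L, z * x.1 = x.1 * z) ∧
      ∀ X : Matrix (Fin n) (Fin n) F, (∀ x ∈ L, X * x.1 = x.1 * X) → z * X = X * z :=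
    fun z => Iff.rfl
  have hZcomm : ∀ x ∈ Zc, ∀ y ∈ Zc, x * y = y * x := by
    intro x hx y hy
    exact ((hmemZ x).mp hx).2 y ((hmemZ y).mp hy).1
  have hZinv : ∀ x ∈ Zc, x ≠ 0 → ∃ y ∈ Zc, x * y = 1 := by
    intro z hz hz0
    obtain ⟨hz1, hz2⟩ := (hmemZ z).mp hz
    have key : ∀ A : Matrix (Fin n) (Fin n) F, z * A = A * z →
        (LinearMap.ker (Matrix.toLin' z)).map (Matrix.toLin' A) ≤
          LinearMap.ker (Matrix.toLin' z) := by
      rintro A hA _ ⟨w, hw, rfl⟩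
      rw [SetLike.mem_coe, LinearMap.mem_ker, Matrix.toLin'_apply] at hw
      rw [LinearMap.mem_ker, Matrix.toLin'_apply, Matrix.toLin'_apply, Matrix.mulVec_mulVec, hA,
        ← Matrix.mulVec_mulVec, hw, Matrix.mulVec_zero]
    rcases hhom _ (fun x hx => key x.1 (hz1 x hx)) (fun X hX => key X (hz2 X hX)) with
      hbot | htop
    · have hinj : Function.Injective z.mulVec := by
        intro a b hab
        have h3 : a - b ∈ LinearMap.ker (Matrix.toLin' z) := by
          rw [LinearMap.mem_ker, Matrix.toLin'_apply, Matrix.mulVec_sub, hab, sub_self]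
        rw [hbot, Submodule.mem_bot] at h3
        exact sub_eq_zero.mp h3
      have hu : IsUnit z := Matrix.mulVec_injective_iff_isUnit.mp hinj
      have hdet : IsUnit z.det := (Matrix.isUnit_iff_isUnit_det z).mp hu
      have h1 : z * z⁻¹ = 1 := Matrix.mul_nonsing_inv z hdet
      have h2 : z⁻¹ * z = 1 := Matrix.nonsing_inv_mul z hdet
      have hcomm : ∀ A : Matrix (Fin n) (Fin n) F, z * A = A * z → z⁻¹ * A = A * z⁻¹ := by
        intro A hA
        calc z⁻¹ * A = z⁻¹ * A * (z * z⁻¹) := by rw [h1, mul_one]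
          _ = z⁻¹ * (A * z) * z⁻¹ := by simp only [mul_assoc]
          _ = z⁻¹ * (z * A) * z⁻¹ := by rw [hA]
          _ = (z⁻¹ * z) * A * z⁻¹ := by simp only [mul_assoc]
          _ = A * z⁻¹ := by rw [h2, one_mul]
      exact ⟨z⁻¹, (hmemZ _).mpr ⟨fun x hx => hcomm x.1 (hz1 x hx),
        fun X hX => hcomm X (hz2 X hX)⟩, h1⟩
    · exfalso
      apply hz0
      have h3 : Matrix.toLin' z = 0 := by
        apply LinearMap.ext
        intro v
        have hv : v ∈ LinearMap.ker (Matrix.toLin' z) := by rw [htop]; exact Submodule.mem_top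
        rw [LinearMap.mem_ker] at hv
        rw [hv]; rfl
      exact Matrix.toLin'.injective (by rw [h3, map_zero])
  have hZadj : ∀ z ∈ Zc, adj z ∈ Zc := by
    intro z hz
    obtain ⟨hz1, hz2⟩ := (hmemZ z).mp hz
    refine (hmemZ _).mpr ⟨hC z hz1, fun X hX => ?_⟩
    have h1 := hz2 (adj X) (hC X hX)
    have h2 := congrArg adj h1
    rw [adj_mul, adj_mul, adj_adj] at h2
    exact h2.symm
  -- the image of `K` under the adjoint
  let K' : Subalgebra F (Matrix (Fin n) (Fin n) F) :=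
    { carrier := {Y | ∃ k ∈ K, adj k = Y}
      mul_mem' := by
        rintro _ _ ⟨a, ha, rfl⟩ ⟨b, hb, rfl⟩
        exact ⟨b * a, K.mul_mem hb ha, adj_mul b a⟩
      add_mem' := by
        rintro _ _ ⟨a, ha, rfl⟩ ⟨b, hb, rfl⟩
        exact ⟨a + b, K.add_mem ha hb, adj_add a b⟩
      algebraMap_mem' := by
        intro c
        refine ⟨algebraMap F _ c, K.algebraMap_mem c, ?_⟩
        rw [Algebra.algebraMap_eq_smul_one, adj_smul, adj_one] }
  have hmemK' : ∀ Y, Y ∈ K' ↔ ∃ k ∈ K, adj k = Y := fun Y => Iff.rfl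
  let adjL : Matrix (Fin n) (Fin n) F ≃ₗ[F] Matrix (Fin n) (Fin n) F :=
    { toFun := adj
      map_add' := adj_add
      map_smul' := fun c X => by simpa using adj_smul c X
      invFun := adj
      left_inv := adj_adj
      right_inv := adj_adj }
  have hmap : Subalgebra.toSubmodule K' =
      (Subalgebra.toSubmodule K).map (adjL : Matrix (Fin n) (Fin n) F →ₗ[F] _) := by
    ext Y
    constructor
    · intro hY
      obtain ⟨k, hk, rfl⟩ := (hmemK' Y).mp hY
      exact ⟨k, hk, rfl⟩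
    · rintro ⟨k, hk, rfl⟩
      exact (hmemK' _).mpr ⟨k, hk, rfl⟩
  have hfr : Module.finrank F K' = r := by
    rw [← hK.finrank_eq, ← Subalgebra.finrank_toSubmodule K', hmap,
      ← Subalgebra.finrank_toSubmodule K]
    exact LinearEquiv.finrank_map_eq adjL _
  have hK' : IsFieldSubalgebra r K' := by
    refine ⟨?_, ?_, hfr⟩
    · intro Y hY Y' hY'
      obtain ⟨a, ha, rfl⟩ := (hmemK' Y).mp hY
      obtain ⟨b, hb, rfl⟩ := (hmemK' Y').mp hY'
      rw [← adj_mul, ← adj_mul, hK.comm b hb a ha]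
    · intro Y hY hne
      obtain ⟨a, ha, rfl⟩ := (hmemK' Y).mp hY
      have ha0 : a ≠ 0 := by
        rintro rfl
        exact hne adj_zero
      obtain ⟨b, hb, hab⟩ := hK.inv a ha ha0
      refine ⟨adj b, (hmemK' _).mpr ⟨b, hb, rfl⟩, ?_⟩
      rw [← adj_mul, hK.comm b hb a ha, hab, adj_one]
  have hKZ : K ≤ Zc := fun z hz => (hmemZ z).mpr (hKc z hz)
  have hK'Z : K' ≤ Zc := by
    intro Y hY
    obtain ⟨k, hk, rfl⟩ := (hmemK' Y).mp hY
    exact hZadj k (hKZ hk)
  have hEq : K = K' := huniq Zc hZcomm hZinv r K K' hK hK' hKZ hK'Z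
  intro k hk
  refine ⟨adj k, ?_, hadj k⟩
  exact (SetLike.ext_iff.mp hEq (adj k)).mpr ((hmemK' _).mpr ⟨k, hk, rfl⟩)

end Cfsg.Agent.Lib.Helper89.SPPADJ
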