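import Mathlib
import Cfsg.Agent.Lib.Helper72.JPDefs

/-!
Project JP (helper72; S2948 / S2949), piece K4B (helper89): the fixed points of `A₁` on `W`
have order at most `4`.
-/

set_option autoImplicit false

namespace Cfsg.Agent.Lib.Helper89.JP

open Cfsg.Agent.Lib.Helper72.JP Cfsg.Agent.Lib.Helper72.JM Cfsg.Agent.Lib.Helper72.JL
  Cfsg.Agent.Lib.Helper72.SC Cfsg.Agent.Lib.Helper78.Jc

open scoped commutatorElement

universe u

/-- the involutions of `P` which are central in `P` and centralized by `A₁` -/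
def k4bZ {X : Type u} [Group X] (P A₁ : Subgroup X) : Subgroup X where
  carrier := {z | z ∈ P ∧ z * z = 1 ∧ (∀ p ∈ P, z * p = p * z) ∧ ∀ x ∈ A₁, z * x = x * z}
  one_mem' := ⟨P.one_mem, by rw [one_mul], fun p _ => by rw [one_mul, mul_one],
    fun x _ => by rw [one_mul, mul_one]⟩
  mul_mem' := by
    rintro z z' ⟨hz, hz2, hzP, hzA⟩ ⟨hz', hz'2, hz'P, hz'A⟩
    refine ⟨P.mul_mem hz hz', ?_, ?_, ?_⟩
    · have h1 : z * z' * (z * z') = z * (z' * z) * z' := by simp only [mul_assoc]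
      rw [h1, ← hzP z' hz']
      have h2 : z * (z * z') * z' = (z * z) * (z' * z') := by simp only [mul_assoc]
      rw [h2, hz2, hz'2, one_mul]
    · intro p hp
      rw [mul_assoc, hz'P p hp, ← mul_assoc, hzP p hp, mul_assoc]
    · intro x hx
      rw [mul_assoc, hz'A x hx, ← mul_assoc, hzA x hx, mul_assoc]
  inv_mem' := by
    rintro z ⟨hz, hz2, hzP, hzA⟩
    have h : z⁻¹ = z := inv_eq_of_mul_eq_one_left hz2
    rw [h]
    exact ⟨hz, hz2, hzP, hzA⟩

theorem k4bZ_mem {X : Type u} [Group X] (P A₁ : Subgroup X) (z : X) :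
    z ∈ k4bZ P A₁ ↔
      z ∈ P ∧ z * z = 1 ∧ (∀ p ∈ P, z * p = p * z) ∧ ∀ x ∈ A₁, z * x = x * z :=
  Iff.rfl

theorem k4b : K4bStmt.{u} := by
  intro X _ _ T A A₁ P W a k hA ha hA₁ hcov hPT hAN hkN hk3 hak hA₁k hWP hWc hW2 hfpf
  obtain ⟨hAT, hAc, hA2, hAmax⟩ := hA
  classical
  obtain ⟨Z, hZdef⟩ : ∃ Z : Subgroup X, Z = k4bZ P A₁ := ⟨_, rfl⟩
  have hZmem : ∀ z, z ∈ Z ↔
      z ∈ P ∧ z * z = 1 ∧ (∀ p ∈ P, z * p = p * z) ∧ ∀ x ∈ A₁, z * x = x * z := by
    intro z
    rw [hZdef]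
    exact k4bZ_mem P A₁ z
  -- basic relations
  have haa : a * a = 1 := hA2 a ha
  have hainv : a⁻¹ = a := inv_eq_of_mul_eq_one_left haa
  have hk3' : k * k * k = 1 := by rw [← pow_three', hk3]
  have hprod : a * (k * a * k⁻¹) = k := by
    have h1 : a * k * a = k⁻¹ := by
      have h := hak
      rw [hainv] at h
      exact h
    have h2 : k⁻¹ * k⁻¹ = k := by
      rw [← mul_inv_rev]
      exact inv_eq_of_mul_eq_one_right hk3'
    calc a * (k * a * k⁻¹) = (a * k * a) * k⁻¹ := by simp only [mul_assoc]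
      _ = k⁻¹ * k⁻¹ := by rw [h1]
      _ = k := h2
  -- `k` normalizes `Z`
  have hkP : ∀ p, p ∈ P ↔ k * p * k⁻¹ ∈ P := fun p => Subgroup.mem_normalizer_iff.1 hkN p
  have hkZ : ∀ z ∈ Z, k * z * k⁻¹ ∈ Z := by
    intro z hz
    obtain ⟨hzP, hz2, hzc, hzA⟩ := (hZmem z).1 hz
    refine (hZmem _).2 ⟨(hkP z).1 hzP, ?_, ?_, ?_⟩
    · have e : k * z * k⁻¹ * (k * z * k⁻¹) = k * (z * z) * k⁻¹ := by group
      rw [e, hz2, mul_one, mul_inv_cancel]
    · intro p hp
      have hq : k⁻¹ * p * k ∈ P := by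
        rw [hkP]
        have e : k * (k⁻¹ * p * k) * k⁻¹ = p := by group
        rw [e]
        exact hp
      have h1 := hzc _ hq
      calc k * z * k⁻¹ * p = k * (z * (k⁻¹ * p * k)) * k⁻¹ := by group
        _ = k * ((k⁻¹ * p * k) * z) * k⁻¹ := by rw [h1]
        _ = p * (k * z * k⁻¹) := by group
    · intro x hx
      have hq : k⁻¹ * x * k * x⁻¹ ∈ P := by
        rw [hkP]
        have e : k * (k⁻¹ * x * k * x⁻¹) * k⁻¹ = x * k * x⁻¹ * k⁻¹ := by group
        rw [e]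
        exact hA₁k x hx
      have h1 := hzc _ hq
      have h2 := hzA x hx
      have h3 : z * (k⁻¹ * x * k) = (k⁻¹ * x * k) * z := by
        have e : k⁻¹ * x * k = (k⁻¹ * x * k * x⁻¹) * x := by group
        rw [e, ← mul_assoc, h1, mul_assoc, h2, ← mul_assoc]
      calc k * z * k⁻¹ * x = k * (z * (k⁻¹ * x * k)) * k⁻¹ := by group
        _ = k * ((k⁻¹ * x * k) * z) * k⁻¹ := by rw [h3]
        _ = x * (k * z * k⁻¹) := by group
  -- the elementary abelian subgroup `B = A₁ Z`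
  obtain ⟨B, hB⟩ : ∃ B : Subgroup X, B = A₁ ⊔ Z := ⟨_, rfl⟩
  have hA₁B : A₁ ≤ B := by rw [hB]; exact le_sup_left
  have hZB : Z ≤ B := by rw [hB]; exact le_sup_right
  have hZT : Z ≤ T := fun z hz => hPT ((hZmem z).1 hz).1
  have hBT : B ≤ T := by
    rw [hB]
    exact sup_le (le_trans hA₁ hAT) hZT
  have hBcl : B = Subgroup.closure ((A₁ : Set X) ∪ (Z : Set X)) := by
    rw [hB, Subgroup.closure_union, Subgroup.closure_eq, Subgroup.closure_eq]
  have hgen_comm : ∀ x ∈ ((A₁ : Set X) ∪ (Z : Set X)), ∀ y ∈ ((A₁ : Set X) ∪ (Z : Set X)),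
      x * y = y * x := by
    rintro x (hx | hx) y (hy | hy)
    · exact hAc x (hA₁ hx) y (hA₁ hy)
    · exact (((hZmem y).1 hy).2.2.2 x hx).symm
    · exact ((hZmem x).1 hx).2.2.2 y hy
    · exact ((hZmem x).1 hx).2.2.1 y ((hZmem y).1 hy).1
  have hgen_sq : ∀ x ∈ ((A₁ : Set X) ∪ (Z : Set X)), x * x = 1 := by
    rintro x (hx | hx)
    · exact hA2 x (hA₁ hx)
    · exact ((hZmem x).1 hx).2.1
  have hBc1 : ∀ y ∈ ((A₁ : Set X) ∪ (Z : Set X)), ∀ x ∈ B, x * y = y * x := by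
    intro y hy x hx
    rw [hBcl] at hx
    have hle : Subgroup.closure ((A₁ : Set X) ∪ (Z : Set X)) ≤ Subgroup.centralizer {y} := by
      rw [Subgroup.closure_le]
      intro g hg
      rw [SetLike.mem_coe, Subgroup.mem_centralizer_iff]
      intro h hh
      rw [Set.mem_singleton_iff] at hh
      rw [hh]
      exact hgen_comm y hy g hg
    have h1 := hle hx
    rw [Subgroup.mem_centralizer_iff] at h1
    exact (h1 y rfl).symm
  have hBc : ∀ x ∈ B, ∀ y ∈ B, x * y = y * x := by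
    intro x hx y hy
    rw [hBcl] at hy
    have hle : Subgroup.closure ((A₁ : Set X) ∪ (Z : Set X)) ≤ Subgroup.centralizer {x} := by
      rw [Subgroup.closure_le]
      intro g hg
      rw [SetLike.mem_coe, Subgroup.mem_centralizer_iff]
      intro h hh
      rw [Set.mem_singleton_iff] at hh
      rw [hh]
      exact hBc1 g hg x hx
    have h1 := hle hy
    rw [Subgroup.mem_centralizer_iff] at h1
    exact h1 x rfl
  have hB2' : ∀ x ∈ Subgroup.closure ((A₁ : Set X) ∪ (Z : Set X)), x * x = 1 := by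
    intro x hx'
    induction hx' using Subgroup.closure_induction with
    | mem x hx => exact hgen_sq x hx
    | one => rw [one_mul]
    | mul x y hx hy ihx ihy =>
      have hxB : x ∈ B := by rw [hBcl]; exact hx
      have hyB : y ∈ B := by rw [hBcl]; exact hy
      have hc := hBc x hxB y hyB
      have e1 : x * y * (x * y) = x * (y * x) * y := by simp only [mul_assoc]
      rw [e1, ← hc]
      have e2 : x * (x * y) * y = (x * x) * (y * y) := by simp only [mul_assoc]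
      rw [e2, ihx, ihy, one_mul]
    | inv x hx ihx =>
      rw [← mul_inv_rev, ihx, inv_one]
  have hB2 : ∀ x ∈ B, x * x = 1 := by
    intro x hx
    rw [hBcl] at hx
    exact hB2' x hx
  have hBA : Nat.card B ≤ Nat.card A := hAmax B hBT hBc hB2
  have hA2c : Nat.card A ≤ 2 * Nat.card A₁ := by
    have hsub : (A : Set X) ⊆ (A₁ : Set X) ∪ (fun y => y * a) '' (A₁ : Set X) := by
      intro x hx
      rcases hcov x hx with h | h
      · exact Or.inl h
      · refine Or.inr ⟨x * a, h, ?_⟩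
        show x * a * a = x
        rw [mul_assoc, haa, mul_one]
    have e1 : Nat.card A = (A : Set X).ncard := Nat.card_coe_set_eq (A : Set X)
    have e2 : Nat.card A₁ = (A₁ : Set X).ncard := Nat.card_coe_set_eq (A₁ : Set X)
    rw [e1, e2]
    calc (A : Set X).ncard ≤ ((A₁ : Set X) ∪ (fun y => y * a) '' (A₁ : Set X)).ncard :=
          Set.ncard_le_ncard hsub (Set.toFinite _)
      _ ≤ (A₁ : Set X).ncard + ((fun y => y * a) '' (A₁ : Set X)).ncard :=
          Set.ncard_union_le _ _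
      _ ≤ (A₁ : Set X).ncard + (A₁ : Set X).ncard :=
          Nat.add_le_add_left (Set.ncard_image_le (Set.toFinite _)) _
      _ = 2 * (A₁ : Set X).ncard := by ring
  -- index bookkeeping
  have hne : ∀ H K : Subgroup X, H.relIndex K ≠ 0 := fun H K =>
    Subgroup.index_ne_zero_of_finite
  have hcard : ∀ H K : Subgroup X, H ≤ K → Nat.card H * H.relIndex K = Nat.card K := by
    intro H K h
    have h1 := Subgroup.relIndex_mul_relIndex ⊥ H K bot_le h
    rw [Subgroup.relIndex_bot_left, Subgroup.relIndex_bot_left] at h1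
    exact h1
  have hpos : ∀ H : Subgroup X, 0 < Nat.card H := fun H => Nat.card_pos
  have h1 : A₁.relIndex B ≤ 2 := by
    have h := hcard A₁ B hA₁B
    have h' : Nat.card A₁ * A₁.relIndex B ≤ Nat.card A₁ * 2 := by
      rw [h]
      omega
    exact Nat.le_of_mul_le_mul_left h' (hpos A₁)
  have h2 : A₁.relIndex Z ≤ 2 :=
    le_trans (Subgroup.relIndex_le_of_le_right hZB (hne _ _)) h1
  obtain ⟨E₁, hE₁⟩ : ∃ E : Subgroup X, E = Z ⊓ Subgroup.centralizer {a} := ⟨_, rfl⟩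
  obtain ⟨E₂, hE₂⟩ : ∃ E : Subgroup X, E = Z ⊓ Subgroup.centralizer {k * a * k⁻¹} := ⟨_, rfl⟩
  have hE₁Z : E₁ ≤ Z := by rw [hE₁]; exact inf_le_left
  have hE₂Z : E₂ ≤ Z := by rw [hE₂]; exact inf_le_left
  have h3 : E₁.relIndex Z ≤ 2 := by
    have hle : A₁ ⊓ Z ≤ E₁ := by
      intro x hx
      rw [Subgroup.mem_inf] at hx
      rw [hE₁, Subgroup.mem_inf]
      refine ⟨hx.2, ?_⟩
      rw [Subgroup.mem_centralizer_iff]
      intro h hh
      rw [Set.mem_singleton_iff] at hh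
      rw [hh]
      exact hAc a ha x (hA₁ hx.1)
    have h := Subgroup.relIndex_le_of_le_left (L := Z) hle (hne _ _)
    rw [Subgroup.inf_relIndex_right] at h
    exact le_trans h h2
  have h4 : Nat.card E₁ ≤ Nat.card E₂ := by
    have hle : E₁.map (MulAut.conj k).toMonoidHom ≤ E₂ := by
      rintro _ ⟨z, hz, rfl⟩
      rw [hE₁] at hz
      rw [SetLike.mem_coe, Subgroup.mem_inf] at hz
      obtain ⟨hz1, hz2⟩ := hz
      rw [hE₂, Subgroup.mem_inf]
      refine ⟨hkZ z hz1, ?_⟩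
      rw [Subgroup.mem_centralizer_iff] at hz2 ⊢
      intro h hh
      rw [Set.mem_singleton_iff] at hh
      rw [hh]
      have hz3 := hz2 a rfl
      show k * a * k⁻¹ * (k * z * k⁻¹) = k * z * k⁻¹ * (k * a * k⁻¹)
      have e1 : k * a * k⁻¹ * (k * z * k⁻¹) = k * (a * z) * k⁻¹ := by group
      have e2 : k * z * k⁻¹ * (k * a * k⁻¹) = k * (z * a) * k⁻¹ := by group
      rw [e1, e2, hz3]
    have h := Subgroup.card_le_of_le hle
    rw [Subgroup.card_map_of_injective (MulAut.conj k).injective] at h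
    exact h
  have h5 : E₂.relIndex Z ≤ 2 := by
    have ha1 := hcard E₁ Z hE₁Z
    have ha2 := hcard E₂ Z hE₂Z
    have h' : Nat.card E₂ * E₂.relIndex Z ≤ Nat.card E₂ * 2 := by
      rw [ha2, ← ha1]
      calc Nat.card E₁ * E₁.relIndex Z ≤ Nat.card E₁ * 2 := Nat.mul_le_mul_left _ h3
        _ ≤ Nat.card E₂ * 2 := Nat.mul_le_mul_right _ h4
    exact Nat.le_of_mul_le_mul_left h' (hpos E₂)
  have h6 : (E₁ ⊓ E₂).relIndex Z ≤ 4 := by
    calc (E₁ ⊓ E₂).relIndex Z ≤ E₁.relIndex Z * E₂.relIndex Z := Subgroup.relIndex_inf_le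
      _ ≤ 2 * 2 := Nat.mul_le_mul h3 h5
  -- the fixed points `W₁`
  obtain ⟨W₁, hW₁⟩ : ∃ W₁ : Subgroup X, W₁ = W ⊓ Subgroup.centralizer (A₁ : Set X) :=
    ⟨_, rfl⟩
  have hW₁Z : W₁ ≤ Z := by
    intro w hw
    rw [hW₁, Subgroup.mem_inf, Subgroup.mem_centralizer_iff] at hw
    exact (hZmem w).2 ⟨hWP hw.1, hW2 w hw.1, hWc w hw.1, fun x hx => (hw.2 x hx).symm⟩
  have hbot : (E₁ ⊓ E₂) ⊓ W₁ = ⊥ := by
    rw [eq_bot_iff]
    intro w hw
    rw [Subgroup.mem_inf, Subgroup.mem_inf, hE₁, hE₂, hW₁, Subgroup.mem_inf, Subgroup.mem_inf,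
      Subgroup.mem_inf, Subgroup.mem_centralizer_iff, Subgroup.mem_centralizer_iff] at hw
    obtain ⟨⟨⟨-, hwa⟩, ⟨-, hwk⟩⟩, ⟨hw1, -⟩⟩ := hw
    rw [Subgroup.mem_bot]
    apply hfpf w hw1
    have ha' := hwa a rfl
    have hk' := hwk (k * a * k⁻¹) rfl
    have e : k * w = w * k := by
      calc k * w = a * ((k * a * k⁻¹) * w) := by rw [← mul_assoc a (k * a * k⁻¹) w, hprod]
        _ = a * (w * (k * a * k⁻¹)) := by rw [hk']
        _ = (a * w) * (k * a * k⁻¹) := (mul_assoc a w (k * a * k⁻¹)).symm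
        _ = (w * a) * (k * a * k⁻¹) := by rw [ha']
        _ = w * k := by rw [mul_assoc w a (k * a * k⁻¹), hprod]
    rw [e, mul_assoc, mul_inv_cancel, mul_one]
  have h7 : Nat.card W₁ = (E₁ ⊓ E₂).relIndex W₁ := by
    rw [← Subgroup.inf_relIndex_right, hbot, Subgroup.relIndex_bot_left]
  rw [← hW₁, h7]
  exact le_trans (Subgroup.relIndex_le_of_le_right hW₁Z (hne _ _)) h6

end Cfsg.Agent.Lib.Helper89.JP
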