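import Mathlib
import Cfsg.Agent.Lib.Helper72.JMDefs
import Cfsg.Agent.Lib.Helper82.JcOCPC
import Cfsg.Agent.Lib.Helper41.Cores
import Cfsg.Agent.S0612

/-!
S2943 project JM, piece EXTC (helper89 for helper72): for the FF group `H = ⟨best offenders⟩`,
`O_3(H)` is abelian: it lies in the join `N₀` of the `H`-invariant subgroups of order 3, which is
commutative, because `H / N₀` has exponent two (given the statement EXTM2 for minimal best
offenders).
-/

set_option autoImplicit false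

namespace Cfsg.Agent.Lib.Helper89.JM

open Cfsg.Agent.Lib.Helper72.JM Cfsg.Agent.Lib.Helper72.JL Cfsg.Agent.Lib.Helper72.SC
  Cfsg.Agent.Lib.Helper78.Jc

open scoped commutatorElement

universe u

theorem extc_zpowers_eq {G : Type*} [Group G] [Finite G] (M : Subgroup G)
    (hM : Nat.card ↥M = 3) (x : G) (hx : x ∈ M) (hx1 : x ≠ 1) : Subgroup.zpowers x = M := by
  have hle : Subgroup.zpowers x ≤ M := by rw [Subgroup.zpowers_le]; exact hx
  apply Subgroup.eq_of_le_of_card_ge hle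
  rw [Nat.card_zpowers, hM]
  have h1 : orderOf x ∣ 3 := by
    have h2 : orderOf (⟨x, hx⟩ : M) ∣ Nat.card M := orderOf_dvd_natCard _
    rw [hM] at h2
    rwa [Subgroup.orderOf_mk] at h2
  have h3 : orderOf x ≠ 1 := by rwa [Ne, orderOf_eq_one_iff]
  rcases (Nat.dvd_prime Nat.prime_three).mp h1 with h4 | h4
  · exact absurd h4 h3
  · exact h4.ge

theorem extc (h : Extm2Stmt.{u}) : ExtcStmt.{u} := by
  intro G _ _ V H hV hHV hf hS1 hS3
  classical
  have : Fact (Nat.Prime 2) := ⟨Nat.prime_two⟩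
  have : Fact (Nat.Prime 3) := ⟨Nat.prime_three⟩
  -- the join of the `H`-invariant subgroups of order 3
  have hFam : ∃ Fam : Set (Subgroup G), Fam =
      {M | M ≤ H ∧ (∀ x ∈ H, ∀ m ∈ M, x * m * x⁻¹ ∈ M) ∧ Nat.card ↥M = 3} := ⟨_, rfl⟩
  obtain ⟨Fam, hFamdef⟩ := hFam
  have hFam : ∀ M, M ∈ Fam ↔ M ≤ H ∧ (∀ x ∈ H, ∀ m ∈ M, x * m * x⁻¹ ∈ M) ∧ Nat.card ↥M = 3 := by
    intro M; rw [hFamdef]; rfl
  obtain ⟨N0, hN0def⟩ : ∃ N0 : Subgroup G, N0 = sSup Fam := ⟨_, rfl⟩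
  have hleN0 : ∀ M ∈ Fam, M ≤ N0 := fun M hM => hN0def ▸ le_sSup hM
  have hN0le : ∀ K : Subgroup G, (∀ M ∈ Fam, M ≤ K) → N0 ≤ K := fun K hK => hN0def ▸ sSup_le hK
  -- `N0` is `H`-invariant
  have hnorm : ∀ x ∈ H, ∀ n ∈ N0, x * n * x⁻¹ ∈ N0 := by
    intro x hx n hn
    have hle : N0 ≤ N0.comap (MulAut.conj x).toMonoidHom := by
      apply hN0le
      intro M hM m hm
      rw [Subgroup.mem_comap]
      exact hleN0 M hM (((hFam M).mp hM).2.1 x hx m hm)
    exact hle hn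
  -- generators commute
  have hgen : ∀ M ∈ Fam, ∀ M' ∈ Fam, ∀ m ∈ M, ∀ m' ∈ M', m * m' = m' * m := by
    intro M hM M' hM' m hm m' hm'
    have hMf := (hFam M).mp hM
    have hM'f := (hFam M').mp hM'
    by_cases hMM : M = M'
    · subst hMM
      have hc : IsCyclic M := isCyclic_of_prime_card (p := 3) hMf.2.2
      obtain ⟨g, hg⟩ := hc.exists_generator
      obtain ⟨i, hi⟩ := Subgroup.mem_zpowers_iff.mp (hg ⟨m, hm⟩)
      obtain ⟨j, hj⟩ := Subgroup.mem_zpowers_iff.mp (hg ⟨m', hm'⟩)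
      have e : (⟨m, hm⟩ : M) * ⟨m', hm'⟩ = ⟨m', hm'⟩ * ⟨m, hm⟩ := by
        rw [← hi, ← hj, ← zpow_add, ← zpow_add, add_comm]
      exact congrArg Subtype.val e
    · have hbot : M ⊓ M' = ⊥ := by
        by_contra hne
        obtain ⟨⟨x, hxM, hxM'⟩, hx1⟩ := (Subgroup.ne_bot_iff_exists_ne_one).mp hne
        have hx1' : x ≠ 1 := fun hx => hx1 (Subtype.ext hx)
        have e1 := extc_zpowers_eq M hMf.2.2 x hxM hx1'
        have e2 := extc_zpowers_eq M' hM'f.2.2 x hxM' hx1'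
        exact hMM (e1.symm.trans e2)
      have hc : m * m' * m⁻¹ * m'⁻¹ ∈ M ⊓ M' := by
        constructor
        · have e : m * m' * m⁻¹ * m'⁻¹ = m * (m' * m⁻¹ * m'⁻¹) := by group
          rw [e]
          exact M.mul_mem hm (hMf.2.1 m' (hM'f.1 hm') m⁻¹ (M.inv_mem hm))
        · exact M'.mul_mem (hM'f.2.1 m (hMf.1 hm) m' hm') (M'.inv_mem hm')
      rw [hbot, Subgroup.mem_bot] at hc
      calc m * m' = (m * m' * m⁻¹ * m'⁻¹) * (m' * m) := by group
        _ = m' * m := by rw [hc, one_mul]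
  -- `N0` is commutative
  have hgen2 : ∀ M ∈ Fam, ∀ m ∈ M, ∀ y ∈ N0, m * y = y * m := by
    intro M hM m hm y hy
    have hle : N0 ≤ Subgroup.centralizer ({m} : Set G) := by
      apply hN0le
      intro M' hM' m' hm'
      rw [Subgroup.mem_centralizer_iff]
      intro z hz
      rw [Set.mem_singleton_iff] at hz
      rw [hz]
      exact hgen M hM M' hM' m hm m' hm'
    have := Subgroup.mem_centralizer_iff.mp (hle hy) m rfl
    exact this
  have hcomm : ∀ x ∈ N0, ∀ y ∈ N0, x * y = y * x := by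
    intro x hx y hy
    have hle : N0 ≤ Subgroup.centralizer ({y} : Set G) := by
      apply hN0le
      intro M hM m hm
      rw [Subgroup.mem_centralizer_iff]
      intro z hz
      rw [Set.mem_singleton_iff] at hz
      rw [hz]
      exact (hgen2 M hM m hm y hy).symm
    have := Subgroup.mem_centralizer_iff.mp (hle hx) y rfl
    exact this.symm
  -- the subgroup of elements of `H` that are central involutions modulo `N0`
  let S : Subgroup G :=
    { carrier := {x | x ∈ H ∧ x * x ∈ N0 ∧ ∀ g ∈ H, g * x * g⁻¹ * x⁻¹ ∈ N0}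
      one_mem' := by
        refine ⟨H.one_mem, ?_, fun g _ => ?_⟩
        · rw [mul_one]; exact N0.one_mem
        · have e : g * 1 * g⁻¹ * (1 : G)⁻¹ = 1 := by group
          rw [e]; exact N0.one_mem
      mul_mem' := by
        rintro x y ⟨hx, hxx, hxc⟩ ⟨hy, hyy, hyc⟩
        refine ⟨H.mul_mem hx hy, ?_, fun g hg => ?_⟩
        · have e : x * y * (x * y) = (x * x) * (x⁻¹ * y * x⁻¹⁻¹ * y⁻¹) * (y * y) := by group
          rw [e]
          exact N0.mul_mem (N0.mul_mem hxx (hyc x⁻¹ (H.inv_mem hx))) hyy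
        · have e : g * (x * y) * g⁻¹ * (x * y)⁻¹ =
              (g * x * g⁻¹ * x⁻¹) * (x * (g * y * g⁻¹ * y⁻¹) * x⁻¹) := by group
          rw [e]
          exact N0.mul_mem (hxc g hg) (hnorm x hx _ (hyc g hg))
      inv_mem' := by
        rintro x ⟨hx, hxx, hxc⟩
        refine ⟨H.inv_mem hx, ?_, fun g hg => ?_⟩
        · have e : x⁻¹ * x⁻¹ = (x * x)⁻¹ := by group
          rw [e]
          exact N0.inv_mem hxx
        · have e : g * x⁻¹ * g⁻¹ * x⁻¹⁻¹ = x⁻¹ * (g * x * g⁻¹ * x⁻¹)⁻¹ * x⁻¹⁻¹ := by group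
          rw [e]
          exact hnorm x⁻¹ (H.inv_mem hx) _ (N0.inv_mem (hxc g hg)) }
  have hmemS : ∀ x, x ∈ S ↔ x ∈ H ∧ x * x ∈ N0 ∧ ∀ g ∈ H, g * x * g⁻¹ * x⁻¹ ∈ N0 :=
    fun x => Iff.rfl
  -- every best offender inside `H` lies in `S`
  have hAS : ∀ A : Subgroup G, A ≤ H → Cfsg.IsBestOffenderOn 2 V A → A ≤ S := by
    intro A hAH hA
    by_cases hA1 : A = ⊥
    · rw [hA1]; exact bot_le
    have hH1 : H ≠ ⊥ := by
      intro hH
      apply hA1
      rw [hH] at hAH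
      exact le_bot_iff.mp hAH
    obtain ⟨k, B, hB, -, hsup⟩ :=
      Cfsg.Agent.S0612.result (p := 2) V H hV hHV hf hS1 hS3 hH1 A hAH hA hA1
    rw [← hsup]
    refine iSup_le fun i => ?_
    obtain ⟨hBA, hBbo, hBV, hBmin⟩ := hB i
    have hBH : B i ≤ H := hBA.trans hAH
    obtain ⟨M, hMH, hMn, hM3, hMc⟩ := h G V H hV hHV hf hS1 hS3 (B i) hBH hBbo hBV hBmin
    have hMN0 : M ≤ N0 := hleN0 M ((hFam M).mpr ⟨hMH, hMn, hM3⟩)
    intro b hb
    have hbH : b ∈ H := hBH hb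
    have hbb : b * b = 1 := by
      have h1 : b ^ 2 ∈ Subgroup.centralizer (V : Set G) := hBbo.2.2 b hb
      have h2 : b ^ 2 ∈ H ⊓ Subgroup.centralizer (V : Set G) := ⟨H.pow_mem hbH 2, h1⟩
      rw [hf, Subgroup.mem_bot] at h2
      rw [← pow_two]; exact h2
    refine (hmemS b).mpr ⟨hbH, ?_, fun g hg => ?_⟩
    · rw [hbb]; exact N0.one_mem
    · exact hMN0 (hMc g hg b hb)
  have hHS : H ≤ S := by
    have h1 : (⨆ A : {A : Subgroup G // A ≤ H ∧ Cfsg.IsBestOffenderOn 2 V A}, (A : Subgroup G))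
        ≤ S := iSup_le fun A => hAS A.1 A.2.1 A.2.2
    exact hS3.le.trans h1
  -- `O_3(H) ≤ N0`
  have hO3 : ∀ a ∈ (Cfsg.pCore 3 ↥H).map H.subtype, a ∈ N0 := by
    rintro _ ⟨a', ha', rfl⟩
    have hp : IsPGroup 3 (Cfsg.pCore 3 ↥H) := Cfsg.Agent.Lib.Helper82.Jc.pCore_isPGroup_aux 3 ↥H
    obtain ⟨n, hn⟩ := hp ⟨a', ha'⟩
    have hn' : (H.subtype a') ^ 3 ^ n = 1 := by
      have h1 := congrArg (fun z : ↥(Cfsg.pCore 3 ↥H) => H.subtype (z : ↥H)) hn
      simpa using h1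
    have hsq : H.subtype a' * H.subtype a' ∈ N0 := ((hmemS _).mp (hHS a'.2)).2.1
    have hodd : Odd (3 ^ n) := Odd.pow (by decide)
    obtain ⟨k, hk⟩ := hodd
    have e : (H.subtype a' * H.subtype a') ^ (k + 1) = H.subtype a' := by
      rw [← pow_two, ← pow_mul]
      have e2 : 2 * (k + 1) = 3 ^ n + 1 := by omega
      rw [e2, pow_succ, hn', one_mul]
    rw [← e]
    exact N0.pow_mem hsq _
  intro a ha b hb
  exact hcomm a (hO3 a ha) b (hO3 b hb)

end Cfsg.Agent.Lib.Helper89.JM
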