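import Mathlib
import Cfsg.Agent.Lib.Helper83.Ortho
import Cfsg.Agent.Lib.Helper83.Linear
import Cfsg.Agent.Lib.Helper82.CharCore

/-!
# S0997 cases B1/B2 (Brauer–Tuan), piece BW-C2 `col_int` (job board, architect helper5)
Column orthogonality at `w`, restricted to the principal character, the finset `s` and the set
`Y`, with integer character values.
-/

set_option autoImplicit false

namespace Cfsg.Agent.Lib.Helper5.BW

open Cfsg
open Cfsg.Agent.Lib.Helper83 (trivIrr)
open scoped ComplexConjugate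

/-- BW-C2 -/
theorem col_int {G : Type*} [Group G] [Fintype G] (X Y : Set (IrrCharacter G))
    (hXY : Disjoint X Y) (htriv : trivIrr G ∈ X) (s : Finset (IrrCharacter G))
    (hs : ∀ χ, χ ∈ s ↔ χ ∈ X ∧ χ ≠ trivIrr G) (t : ℕ) (hY : Nat.card Y = t)
    (θ₀ : IrrCharacter G) (w : G) (a : IrrCharacter G → ℤ)
    (ha : ∀ ψ : IrrCharacter G, (ψ : G → ℂ) w = (a ψ : ℂ)) (hYa : ∀ θ ∈ Y, a θ = a θ₀) :
    1 + ∑ χ ∈ s, (a χ) ^ 2 + (t : ℤ) * (a θ₀) ^ 2 ≤
      (Nat.card (Subgroup.centralizer ({w} : Set G)) : ℤ) := by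
  classical
  have hfin : Finite (IrrCharacter G) := Cfsg.Agent.Lib.Helper82.finite_irrCharacter G
  have hft : Fintype (IrrCharacter G) := Fintype.ofFinite _
  -- column orthogonality
  have hcol := Cfsg.Agent.Lib.Helper83.column_orthogonality_conj (G := G) (g := w) (h := w)
    (IsConj.refl w)
  have hsum : ∑ χ : IrrCharacter G, (a χ) ^ 2 =
      (Nat.card (Subgroup.centralizer ({w} : Set G)) : ℤ) := by
    have h1 : ((∑ χ : IrrCharacter G, (a χ) ^ 2 : ℤ) : ℂ) =
        ((Nat.card (Subgroup.centralizer ({w} : Set G)) : ℤ) : ℂ) := by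
      rw [Int.cast_natCast, ← hcol, Int.cast_sum]
      refine Finset.sum_congr rfl fun χ _ => ?_
      rw [ha χ, map_intCast, Int.cast_pow, pow_two]
    exact_mod_cast h1
  -- the three disjoint parts
  have htw : a (trivIrr G) = 1 := by
    have h1 := ha (trivIrr G)
    rw [Cfsg.Agent.Lib.Helper83.trivIrr_apply] at h1
    exact_mod_cast h1.symm
  set Yf : Finset (IrrCharacter G) := Finset.univ.filter (fun θ => θ ∈ Y) with hYf
  have hYfcard : Yf.card = t := by
    rw [← hY, Nat.card_eq_fintype_card, Fintype.card_subtype]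
  have htns : trivIrr G ∉ s := fun h => ((hs _).mp h).2 rfl
  have htnY : trivIrr G ∉ Yf := by
    intro h
    have h1 : trivIrr G ∈ Y := (Finset.mem_filter.mp h).2
    exact Set.disjoint_left.mp hXY htriv h1
  have hsY : Disjoint s Yf := by
    rw [Finset.disjoint_left]
    intro χ hχ hχY
    exact Set.disjoint_left.mp hXY ((hs _).mp hχ).1 (Finset.mem_filter.mp hχY).2
  have hdis : Disjoint ({trivIrr G} : Finset (IrrCharacter G)) (s ∪ Yf) := by
    rw [Finset.disjoint_singleton_left, Finset.mem_union]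
    rintro (h | h)
    · exact htns h
    · exact htnY h
  have hle : ∑ χ ∈ ({trivIrr G} : Finset (IrrCharacter G)) ∪ (s ∪ Yf), (a χ) ^ 2 ≤
      ∑ χ : IrrCharacter G, (a χ) ^ 2 :=
    Finset.sum_le_sum_of_subset_of_nonneg (Finset.subset_univ _) fun χ _ _ => sq_nonneg _
  rw [Finset.sum_union hdis, Finset.sum_union hsY, Finset.sum_singleton, htw] at hle
  have hYsum : ∑ θ ∈ Yf, (a θ) ^ 2 = (t : ℤ) * (a θ₀) ^ 2 := by
    rw [Finset.sum_congr rfl (fun θ hθ => by rw [hYa θ (Finset.mem_filter.mp hθ).2]),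
      Finset.sum_const, hYfcard, nsmul_eq_mul]
  rw [hYsum, hsum] at hle
  linarith

end Cfsg.Agent.Lib.Helper5.BW
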