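import Mathlib
import Cfsg.Agent.Lib.Helper10.BWDefs
import Cfsg.Agent.Lib.Helper22.WeakOrth

/-!
# S0997 case B2 (project BW, architect helper10): piece BW-FD3 `fourier_triv`
`Σ_h om P θ (h⁻¹ x h) = |G| θ(x) / θ(1)`.
-/

set_option autoImplicit false
set_option linter.style.haveILetI false

namespace Cfsg.Agent.Lib.Helper10.BW

open Cfsg
open Cfsg.Agent.Lib.Helper83 (trivIrr)
open Cfsg.Agent.Lib.Helper10.BR (psum)
open scoped ComplexConjugate

universe u

variable {G : Type u} [Group G] [Fintype G]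

/-- BW-FD3 -/
theorem fourier_triv (P : Subgroup G) (θ : IrrCharacter G)
    (h1 : psum P (θ : G → ℂ) 1 = (Nat.card P : ℂ)) (x : G) :
    ∑ h : G, om P (θ : G → ℂ) (h⁻¹ * x * h) =
      (Nat.card G : ℂ) * (θ : G → ℂ) x / (θ : G → ℂ) 1 := by
  classical
  have hfP : Fintype P := Fintype.ofFinite _
  have hP0 : (Nat.card P : ℂ) ≠ 0 := by
    have : 0 < Nat.card P := Nat.card_pos
    exact_mod_cast this.ne'
  have key : ∀ u : G, ∑ h : G, (θ : G → ℂ) (h⁻¹ * x * h * u) =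
      (Nat.card G : ℂ) * (θ : G → ℂ) x * (θ : G → ℂ) u / (θ : G → ℂ) 1 := by
    intro u
    have e1 : ∑ h : G, (θ : G → ℂ) (h⁻¹ * x * h * u) =
        ∑ t : G, (θ : G → ℂ) (t * x * t⁻¹ * u) := by
      rw [← Equiv.sum_comp (Equiv.inv G) (fun t => (θ : G → ℂ) (t * x * t⁻¹ * u))]
      refine Finset.sum_congr rfl fun h _ => ?_
      simp
    rw [e1, Cfsg.Agent.Lib.Helper22.irr_sum_conj_mul θ x u]
  have h1' : ∑ u : P, (θ : G → ℂ) (u : G) = (Nat.card P : ℂ) := by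
    rw [← h1, Cfsg.Agent.Lib.Helper10.BR.psum_eq_sum]
    refine Finset.sum_congr rfl fun u _ => by rw [one_mul]
  calc ∑ h : G, om P (θ : G → ℂ) (h⁻¹ * x * h)
      = ∑ h : G, (∑ u : P, (θ : G → ℂ) (h⁻¹ * x * h * (u : G))) / (Nat.card P : ℂ) := by
        refine Finset.sum_congr rfl fun h _ => ?_
        rw [om, Cfsg.Agent.Lib.Helper10.BR.psum_eq_sum]
    _ = (∑ u : P, ∑ h : G, (θ : G → ℂ) (h⁻¹ * x * h * (u : G))) / (Nat.card P : ℂ) := by
        rw [← Finset.sum_div, Finset.sum_comm]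
    _ = (∑ u : P, (Nat.card G : ℂ) * (θ : G → ℂ) x * (θ : G → ℂ) (u : G) /
          (θ : G → ℂ) 1) / (Nat.card P : ℂ) := by
        congr 1
        exact Finset.sum_congr rfl fun u _ => key (u : G)
    _ = ((Nat.card G : ℂ) * (θ : G → ℂ) x / (θ : G → ℂ) 1) *
          (∑ u : P, (θ : G → ℂ) (u : G)) / (Nat.card P : ℂ) := by
        rw [Finset.mul_sum]
        congr 1
        refine Finset.sum_congr rfl fun u _ => by ring
    _ = (Nat.card G : ℂ) * (θ : G → ℂ) x / (θ : G → ℂ) 1 := by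
        rw [h1', mul_div_assoc, div_self hP0, mul_one]

end Cfsg.Agent.Lib.Helper10.BW
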