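import Mathlib
import Cfsg.Agent.Lib.Helper70.D11Defs

set_option autoImplicit false

/-!
# Transitive groups of degree 11: the order is 660 or 7920 (helper89, piece ORD of S0679)
-/

namespace Cfsg.Agent.Lib.Helper89.D11

open Equiv Cfsg.Agent.Lib.Helper70.D11

theorem ord_c0_pow : c0 ^ 11 = 1 := by decide

theorem ord_c0_ne : c0 ≠ 1 := by decide

theorem ord_orderOf_c0 : orderOf c0 = 11 := by
  have h := orderOf_dvd_of_pow_eq_one ord_c0_pow
  rcases (Nat.dvd_prime (by norm_num : Nat.Prime 11)).mp h with h1 | h1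
  · exact absurd (orderOf_eq_one_iff.mp h1) ord_c0_ne
  · exact h1

theorem ord_m3_conj : m3 * c0 * m3⁻¹ = c0 ^ 3 := by decide

/-- conjugation criterion for the normalizer of a finite subgroup -/
theorem ord_mem_normalizer {G : Type*} [Group G] (Q : Subgroup G) [Finite Q] {g : G}
    (h : ∀ x ∈ Q, g * x * g⁻¹ ∈ Q) : g ∈ Subgroup.normalizer (Q : Set G) := by
  have hinj : Function.Injective (fun x : Q => (⟨g * x * g⁻¹, h x x.2⟩ : Q)) := by
    intro a b hab
    have h1 : g * (a : G) * g⁻¹ = g * (b : G) * g⁻¹ := congrArg Subtype.val hab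
    exact Subtype.ext (mul_left_cancel (mul_right_cancel h1))
  have hsurj := Finite.injective_iff_surjective.mp hinj
  rw [Subgroup.mem_normalizer_iff]
  intro y
  constructor
  · exact h y
  · intro hy
    obtain ⟨x, hx⟩ := hsurj ⟨g * y * g⁻¹, hy⟩
    have h1 : g * (x : G) * g⁻¹ = g * y * g⁻¹ := congrArg Subtype.val hx
    have h2 : (x : G) = y := mul_left_cancel (mul_right_cancel h1)
    rw [← h2]; exact x.2

/-- conjugating the generator into the cyclic group suffices -/
theorem ord_conj_zpowers {g : P11} (h : g * c0 * g⁻¹ ∈ Subgroup.zpowers c0) :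
    ∀ x ∈ Subgroup.zpowers c0, g * x * g⁻¹ ∈ Subgroup.zpowers c0 := by
  intro x hx
  obtain ⟨k, rfl⟩ := Subgroup.mem_zpowers_iff.mp hx
  have e : g * c0 ^ k * g⁻¹ = (g * c0 * g⁻¹) ^ k := by
    rw [conj_zpow]
  rw [e]
  exact Subgroup.zpow_mem _ h k

theorem ord_arith (n : ℕ) (h55 : 55 ∣ n) (hmod : n / 55 % 11 = 1) (h110 : 110 ∣ n)
    (hfac : n ∣ 39916800) (h7 : ¬ 7 ∣ n) (hle : n ≤ 7920) : n = 660 ∨ n = 7920 := by
  obtain ⟨m, rfl⟩ := h110
  have hm : m ≤ 72 := by omega
  have hd : m ∣ 362880 := by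
    have : 110 * m ∣ 110 * 362880 := by simpa using hfac
    exact Nat.dvd_of_mul_dvd_mul_left (by norm_num) this
  have h7' : ¬ 7 ∣ m := fun h => h7 (Dvd.dvd.mul_left h 110)
  have e : 110 * m / 55 = 2 * m := by omega
  rw [e] at hmod
  interval_cases m <;> simp_all

theorem card_cases (G : Subgroup P11) (hc : c0 ∈ G) (hm : m3 ∈ G)
    (hN : ∀ g ∈ G, g * c0 * g⁻¹ ∈ Subgroup.zpowers c0 → g ∈ Subgroup.closure ({c0, m3} : Set P11))
    (hF : Nat.card (Subgroup.closure ({c0, m3} : Set P11)) = 55)
    (h2 : MulAction.IsMultiplyPretransitive G (Fin 11) 2) (hJ : NoJW G)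
    (hle : Nat.card G ≤ 7920) : Nat.card G = 660 ∨ Nat.card G = 7920 := by
  classical
  have : Fact (Nat.Prime 11) := ⟨by norm_num⟩
  have hfac : Nat.card G ∣ 39916800 := by
    have h := Subgroup.card_subgroup_dvd_card G
    have e : Nat.card P11 = 39916800 := by
      rw [Nat.card_eq_fintype_card, Fintype.card_perm, Fintype.card_fin]; rfl
    rwa [e] at h
  -- the cyclic group `P` inside `G`
  set P : Subgroup P11 := Subgroup.zpowers c0 with hP
  have hPG : P ≤ G := by rw [hP, Subgroup.zpowers_le]; exact hc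
  have hPcard : Nat.card P = 11 := by rw [hP, Nat.card_zpowers, ord_orderOf_c0]
  set F : Subgroup P11 := Subgroup.closure ({c0, m3} : Set P11) with hFdef
  have hFG : F ≤ G := by
    rw [hFdef, Subgroup.closure_le]
    rintro x (rfl | rfl)
    · exact hc
    · exact hm
  have hFN : F ≤ Subgroup.normalizer (P : Set P11) := by
    rw [hFdef, Subgroup.closure_le]
    rintro x (rfl | rfl)
    · exact Subgroup.le_normalizer (Subgroup.mem_zpowers c0)
    · apply ord_mem_normalizer
      apply ord_conj_zpowers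
      rw [ord_m3_conj]
      exact Subgroup.pow_mem _ (Subgroup.mem_zpowers c0) 3
  -- the Sylow subgroup
  have h11 : 11 ∣ Nat.card G := by
    have := Subgroup.card_dvd_of_le hPG
    rwa [hPcard] at this
  have hfact : (Nat.card G).factorization 11 = 1 := by
    have hpos : Nat.card G ≠ 0 := Nat.card_pos.ne'
    have h1 : 1 ≤ (Nat.card G).factorization 11 :=
      (Nat.Prime.dvd_iff_one_le_factorization (by norm_num) hpos).mp h11
    have h2' : ¬ 11 ^ 2 ∣ Nat.card G := fun h => by
      have := h.trans hfac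
      norm_num at this
    have h3 : ¬ 2 ≤ (Nat.card G).factorization 11 := fun h =>
      h2' ((Nat.Prime.pow_dvd_iff_le_factorization (by norm_num) hpos).mpr h)
    omega
  have hc0 : Nat.card (P.subgroupOf G) = 11 ^ (Nat.card G).factorization 11 := by
    have e : Nat.card (P.subgroupOf G) = Nat.card P :=
      Nat.card_congr (Subgroup.subgroupOfEquivOfLe hPG).toEquiv
    rw [e, hPcard, hfact, pow_one]
  let S : Sylow 11 G := Sylow.ofCard (P.subgroupOf G) hc0
  have hS : (S : Subgroup G) = P.subgroupOf G := rfl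
  -- its normalizer is `F`
  have hnorm : (Subgroup.normalizer ((S : Subgroup G) : Set G)).map G.subtype = F := by
    apply le_antisymm
    · rintro _ ⟨g, hg, rfl⟩
      apply hN (g : P11) g.2
      have hc' : (⟨c0, hc⟩ : G) ∈ (S : Subgroup G) := by
        rw [hS, Subgroup.mem_subgroupOf]; exact Subgroup.mem_zpowers c0
      have := (Subgroup.mem_normalizer_iff.mp hg ⟨c0, hc⟩).mp hc'
      rw [hS, Subgroup.mem_subgroupOf] at this
      exact this
    · intro x hx
      refine ⟨⟨x, hFG hx⟩, ?_, rfl⟩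
      show (⟨x, hFG hx⟩ : G) ∈ Subgroup.normalizer ((S : Subgroup G) : Set G)
      rw [Subgroup.mem_normalizer_iff]
      intro y
      rw [hS, Subgroup.mem_subgroupOf, Subgroup.mem_subgroupOf]
      exact Subgroup.mem_normalizer_iff.mp (hFN hx) (y : P11)
  have hncard : Nat.card (Subgroup.normalizer ((S : Subgroup G) : Set G)) = 55 := by
    rw [← hF, ← hnorm]
    exact (Nat.card_congr
      (Subgroup.equivMapOfInjective _ G.subtype G.subtype_injective).toEquiv)
  have hidx : Nat.card (Sylow 11 G) * 55 = Nat.card G := by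
    rw [Sylow.card_eq_index_normalizer S, ← hncard]
    exact Subgroup.index_mul_card _
  have hmod := card_sylow_modEq_one 11 G
  have h55 : 55 ∣ Nat.card G := ⟨Nat.card (Sylow 11 G), by rw [← hidx, mul_comm]⟩
  have hdiv : Nat.card G / 55 = Nat.card (Sylow 11 G) := by
    rw [← hidx]; exact Nat.mul_div_cancel _ (by norm_num)
  have hmod' : Nat.card G / 55 % 11 = 1 := by
    rw [hdiv]; exact hmod
  -- two-fold transitivity
  have h110 : 110 ∣ Nat.card G := by
    have x0 : Fin 2 ↪ Fin 11 :=
      ⟨fun i => Fin.castLE (by norm_num) i, fun a b h => by simpa using h⟩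
    have h := @MulAction.index_stabilizer_of_transitive G (Fin 2 ↪ Fin 11) _ _ x0 h2
    have e : Nat.card (Fin 2 ↪ Fin 11) = 110 := by
      rw [Nat.card_eq_fintype_card, Fintype.card_embedding_eq, Fintype.card_fin, Fintype.card_fin]
      rfl
    rw [e] at h
    rw [← h]
    exact Subgroup.index_dvd_card _
  -- no element of order 7
  have h7 : ¬ 7 ∣ Nat.card G := by
    intro h
    have : Fact (Nat.Prime 7) := ⟨by norm_num⟩
    obtain ⟨g, hg⟩ := exists_prime_orderOf_dvd_card' 7 h
    have hg' : orderOf (g : P11) = 7 := by rw [Subgroup.orderOf_coe]; exact hg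
    obtain ⟨n, hn⟩ := Equiv.Perm.cycleType_prime_order
      (σ := (g : P11)) (by rw [hg']; norm_num)
    rw [hg'] at hn
    have hsum : (g : P11).support.card = (n + 1) * 7 := by
      rw [← Equiv.Perm.sum_cycleType, hn, Multiset.sum_replicate, smul_eq_mul]
    have hle' : (g : P11).support.card ≤ 11 := by
      have := Finset.card_le_univ (g : P11).support
      simpa using this
    have hn0 : n = 0 := by omega
    subst hn0
    apply hJ (g : P11) g.2
    refine ⟨1, 7, Or.inr (Or.inr rfl), ?_, ?_⟩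
    · rw [pow_one, hsum]
    · rw [pow_one, ← hg']; exact pow_orderOf_eq_one _
  exact ord_arith _ h55 hmod' h110 hfac h7 hle

end Cfsg.Agent.Lib.Helper89.D11
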