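import Cfsg.Agent.Lib.Helper98.H74Defs

/-!
# Project H74 (S5974, helper98), piece GLUEG (helper89)

Glue an isometry `g` of order dividing `r` (on `[V, g]`) with an isometry `h ≠ 1` of order
dividing `r` of its fixed space `ker (g - 1)`: the result has a smaller fixed space.
-/

set_option autoImplicit false

namespace Cfsg.Agent.Lib.Helper98.H74

open Cfsg.Agent.Lib.Helper47 Cfsg.Agent.Lib.Helper98.T73 Module Polynomial

universe u

variable {F : Type u} [Field F] [Fintype F] {V : Type u} [AddCommGroup V] [Module F V]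
  [FiniteDimensional F V] {Q : V → F} {B : V → V → F}

omit [Fintype F] [FiniteDimensional F V] in
/-- `B x` is additive over geometric sums of an isometry fixing `x`. -/
theorem glueg_sum (hQ : IsQuad Q B) (g : Module.End F V) (hgQ : QI Q g) (x y : V)
    (hx : g x = x) (n : ℕ) :
    B x ((∑ j ∈ Finset.range n, g ^ j) y) = (n : F) * B x y := by
  have hpow : ∀ j : ℕ, B x ((g ^ j) y) = B x y := by
    intro j
    induction j with
    | zero => simp
    | succ j ih =>
      rw [pow_succ', Module.End.mul_apply]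
      have h1 := hQ.isometry hQ g hgQ x ((g ^ j) y)
      rw [hx] at h1
      rw [h1, ih]
  induction n with
  | zero =>
    simp only [Finset.range_zero, Finset.sum_empty, LinearMap.zero_apply, Nat.cast_zero, zero_mul]
    exact hQ.form.zero_right x
  | succ n ih =>
    rw [Finset.sum_range_succ, LinearMap.add_apply, hQ.form.add_right, ih, hpow]
    push_cast
    ring

/-- GLUEG -/
theorem glue_iso (hQ : IsQuad Q B) (hnd : Nondeg B) (p : ℕ) [Fact p.Prime] [CharP F p]
    (r : ℕ) (hr : r.Prime) (hrp : r ≠ p) (g : Module.End F V) (hgQ : QI Q g) (hg : g ^ r = 1)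
    (h : Module.End F ↥(LinearMap.ker (g - 1)))
    (hhQ : QI (fun w : ↥(LinearMap.ker (g - 1)) => Q (w : V)) h) (hh : h ^ r = 1)
    (hh1 : h ≠ 1) :
    ∃ g' : Module.End F V, QI Q g' ∧ g' ^ r = 1 ∧ g' ≠ 1 ∧
      finrank F (LinearMap.ker (g' - 1)) < finrank F (LinearMap.ker (g - 1)) := by
  classical
  -- `r` is invertible in `F`
  have hrF : (r : F) ≠ 0 := by
    intro h0
    have hdvd : p ∣ r := (CharP.cast_eq_zero_iff F p r).mp h0
    exact hrp ((Nat.prime_dvd_prime_iff_eq (Fact.out : p.Prime) hr).mp hdvd).symm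
  -- membership in the fixed space
  have hmemC : ∀ v : V, v ∈ LinearMap.ker (g - 1) ↔ g v = v := by
    intro v
    rw [LinearMap.mem_ker, LinearMap.sub_apply, Module.End.one_apply, sub_eq_zero]
  -- the norm element
  obtain ⟨N, hNdef⟩ : ∃ N : Module.End F V, N = ∑ j ∈ Finset.range r, g ^ j := ⟨_, rfl⟩
  have hN1 : ∀ v, g (N v) = N v := by
    intro v
    have h1 : (g - 1) * N = 0 := by
      rw [hNdef, mul_geom_sum, hg, sub_self]
    have h2 := congrArg (fun f : Module.End F V => f v) h1
    simp only [Module.End.mul_apply, LinearMap.sub_apply, Module.End.one_apply,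
      LinearMap.zero_apply] at h2
    exact sub_eq_zero.mp h2
  have hN2 : ∀ c, g c = c → N c = (r : F) • c := by
    intro c hc
    have hpow : ∀ j : ℕ, (g ^ j) c = c := by
      intro j
      induction j with
      | zero => simp
      | succ j ih => rw [pow_succ, Module.End.mul_apply, hc, ih]
    rw [hNdef, LinearMap.sum_apply, Finset.sum_congr rfl (fun j _ => hpow j), Finset.sum_const,
      Finset.card_range, Nat.cast_smul_eq_nsmul]
  have hN3 : ∀ v, N (g v) = N v := by
    intro v
    have h1 : N * (g - 1) = 0 := by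
      rw [hNdef, geom_sum_mul, hg, sub_self]
    have h2 := congrArg (fun f : Module.End F V => f v) h1
    simp only [Module.End.mul_apply, LinearMap.sub_apply, Module.End.one_apply,
      LinearMap.zero_apply, map_sub] at h2
    exact sub_eq_zero.mp h2
  -- the projection onto the fixed space
  obtain ⟨P, hPdef⟩ : ∃ P : Module.End F V, P = (r : F)⁻¹ • N := ⟨_, rfl⟩
  have hPapp : ∀ v, P v = (r : F)⁻¹ • N v := by
    intro v
    rw [hPdef, LinearMap.smul_apply]
  have hP1 : ∀ v, g (P v) = P v := by
    intro v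
    rw [hPapp, map_smul, hN1]
  have hP2 : ∀ c, g c = c → P c = c := by
    intro c hc
    rw [hPapp, hN2 c hc, smul_smul, inv_mul_cancel₀ hrF, one_smul]
  have hP3 : ∀ v, P (g v) = P v := by
    intro v
    rw [hPapp, hPapp, hN3]
  have hPP : ∀ v, P (v - P v) = 0 := by
    intro v
    rw [map_sub, hP2 (P v) (hP1 v), sub_self]
  -- orthogonality of the fixed space and the kernel of `P`
  have horth : ∀ x y, g x = x → P y = 0 → B x y = 0 := by
    intro x y hx hy
    have h1 := glueg_sum hQ g hgQ x y hx r
    rw [← hNdef] at h1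
    have h2 : N y = 0 := by
      have h3 := hPapp y
      rw [hy] at h3
      rcases smul_eq_zero.mp h3.symm with h4 | h4
      · exact absurd (inv_eq_zero.mp h4) hrF
      · exact h4
    rw [h2, hQ.form.zero_right] at h1
    rcases mul_eq_zero.mp h1.symm with h4 | h4
    · exact absurd h4 hrF
    · exact h4
  -- the glued map
  obtain ⟨Pc, hPc⟩ : ∃ Pc : V →ₗ[F] ↥(LinearMap.ker (g - 1)), ∀ v, ((Pc v : ↥(LinearMap.ker (g - 1))) : V) = P v :=
    ⟨P.codRestrict (LinearMap.ker (g - 1)) (fun v => (hmemC _).mpr (hP1 v)), fun v => rfl⟩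
  have hfix : ∀ c : ↥(LinearMap.ker (g - 1)), g (c : V) = c := fun c => (hmemC _).mp c.2
  have hPcc : ∀ c : ↥(LinearMap.ker (g - 1)), Pc (c : V) = c := by
    intro c
    apply Subtype.ext
    rw [hPc, hP2 _ (hfix c)]
  obtain ⟨g', hg'def⟩ : ∃ g' : Module.End F V,
      g' = g + (LinearMap.ker (g - 1)).subtype ∘ₗ (h - 1) ∘ₗ Pc := ⟨_, rfl⟩
  have hg'app : ∀ v, g' v = ((h (Pc v) : ↥(LinearMap.ker (g - 1))) : V) + g (v - P v) := by
    intro v
    rw [hg'def, LinearMap.add_apply, LinearMap.comp_apply, LinearMap.comp_apply,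
      Submodule.subtype_apply, LinearMap.sub_apply, Module.End.one_apply,
      Submodule.coe_sub, hPc, map_sub, hP1]
    abel
  have hPg' : ∀ v, P (g' v) = ((h (Pc v) : ↥(LinearMap.ker (g - 1))) : V) := by
    intro v
    rw [hg'app, map_add, hP2 _ (hfix _), hP3, hPP, add_zero]
  have hPcg' : ∀ v, Pc (g' v) = h (Pc v) := by
    intro v
    apply Subtype.ext
    rw [hPc, hPg']
  -- powers of the glued map
  have hpow : ∀ (j : ℕ) (v : V), (g' ^ j) v
      = (((h ^ j) (Pc v) : ↥(LinearMap.ker (g - 1))) : V) + (g ^ j) (v - P v) := by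
    intro j
    induction j with
    | zero =>
      intro v
      simp only [pow_zero, Module.End.one_apply]
      rw [hPc]
      abel
    | succ j ih =>
      intro v
      rw [pow_succ, Module.End.mul_apply, ih (g' v), hPcg', hPg']
      rw [pow_succ, Module.End.mul_apply, pow_succ, Module.End.mul_apply]
      congr 2
      rw [hg'app]
      abel
  -- a moved vector of the fixed space
  obtain ⟨c₀, hc₀⟩ : ∃ c₀ : ↥(LinearMap.ker (g - 1)), h c₀ ≠ c₀ := by
    by_contra hcon
    apply hh1
    apply LinearMap.ext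
    intro c
    by_contra hc
    exact hcon ⟨c, hc⟩
  have hg'c₀ : g' (c₀ : V) = ((h c₀ : ↥(LinearMap.ker (g - 1))) : V) := by
    rw [hg'app, hPcc, ← hPc, hPcc, sub_self, map_zero, add_zero]
  have hhQ' : ∀ c : ↥(LinearMap.ker (g - 1)),
      Q ((h c : ↥(LinearMap.ker (g - 1))) : V) = Q (c : V) := fun c => hhQ c
  refine ⟨g', ?_, ?_, ?_, ?_⟩
  · -- isometry
    intro v
    have e1 : Q (g' v) = Q ((Pc v : ↥(LinearMap.ker (g - 1))) : V) + Q (v - P v) := by
      rw [hg'app, hQ.polar, hhQ' (Pc v), hgQ,
        horth _ _ (hfix _) (by rw [hP3]; exact hPP v), add_zero]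
    have e2 : Q v = Q ((Pc v : ↥(LinearMap.ker (g - 1))) : V) + Q (v - P v) := by
      have h1 : v = ((Pc v : ↥(LinearMap.ker (g - 1))) : V) + (v - P v) := by
        rw [hPc]
        abel
      have h2 := hQ.polar ((Pc v : ↥(LinearMap.ker (g - 1))) : V) (v - P v)
      rw [← h1, horth _ _ (hfix _) (hPP v), add_zero] at h2
      exact h2
    rw [e1, e2]
  · -- order
    apply LinearMap.ext
    intro v
    rw [hpow, hh, hg, Module.End.one_apply, Module.End.one_apply, Module.End.one_apply, hPc]
    abel
  · -- nontrivial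
    intro h1
    apply hc₀
    apply Subtype.ext
    rw [← hg'c₀, h1, Module.End.one_apply]
  · -- smaller fixed space
    apply Submodule.finrank_lt_finrank_of_lt
    refine lt_of_le_of_ne ?_ ?_
    · intro v hv
      have hv' : g' v = v := by
        rw [LinearMap.mem_ker, LinearMap.sub_apply, Module.End.one_apply, sub_eq_zero] at hv
        exact hv
      have h1 : ((h (Pc v) : ↥(LinearMap.ker (g - 1))) : V) = P v := by
        rw [← hPg', hv']
      have h2 : g (v - P v) = v - P v := by
        have h3 := hg'app v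
        rw [hv', h1] at h3
        have h4 : g (v - P v) = v - P v := by
          rw [eq_sub_iff_add_eq, add_comm]
          exact h3.symm
        exact h4
      have h5 : v - P v = 0 := by
        have h6 := hP2 _ h2
        rw [hPP] at h6
        exact h6.symm
      rw [hmemC]
      have h7 : v = P v := sub_eq_zero.mp h5
      rw [h7]
      exact hP1 v
    · intro heq
      have hmem : (c₀ : V) ∈ LinearMap.ker (g' - 1) := by
        rw [heq]
        exact c₀.2
      rw [LinearMap.mem_ker, LinearMap.sub_apply, Module.End.one_apply, sub_eq_zero, hg'c₀] at hmem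
      exact hc₀ (Subtype.ext hmem)

end Cfsg.Agent.Lib.Helper98.H74
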