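import Mathlib
import Cfsg.Prelude.Def_LieTypeChar
import Cfsg.Agent.Lib.Lead.LTBCore
import Cfsg.Agent.Lib.Lead.LTBDefs

/-!
# LTB-PSL (helper89): the order of `PSL_n(q)` against its `p`-part
-/

set_option autoImplicit false

namespace Cfsg.Agent.Lib.Lead.LTB

open Cfsg

private theorem ltbpsl_prod (q n : ℕ) (_hq : 1 ≤ q) :
    ∏ i : Fin n, (q ^ n - q ^ (i : ℕ)) =
      q ^ (∑ i ∈ Finset.range n, i) * ∏ j ∈ Finset.range n, (q ^ (j + 1) - 1) := by
  rw [Fin.prod_univ_eq_prod_range (fun i => q ^ n - q ^ i) n]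
  have h1 : ∀ i ∈ Finset.range n, q ^ n - q ^ i = q ^ i * (q ^ (n - 1 - i + 1) - 1) := by
    intro i hi
    have hi' : i < n := Finset.mem_range.mp hi
    have h2 : n = i + (n - 1 - i + 1) := by omega
    have h3 : q ^ n = q ^ i * q ^ (n - 1 - i + 1) := by rw [← pow_add, ← h2]
    rw [h3, Nat.mul_sub, mul_one]
  rw [Finset.prod_congr rfl h1, Finset.prod_mul_distrib, Finset.prod_pow_eq_pow_sum]
  congr 1
  exact Finset.prod_range_reflect (fun j => q ^ (j + 1) - 1) n

private theorem ltbpsl_not_dvd (p q : ℕ) (hp : p.Prime) (hpq : p ∣ q) (hq : 1 ≤ q) (n : ℕ) :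
    ¬ p ∣ Nat.gcd n (q - 1) := by
  intro h
  have h1 : p ∣ q - 1 := dvd_trans h (Nat.gcd_dvd_right _ _)
  have h2 : p ∣ q - (q - 1) := Nat.dvd_sub hpq h1
  have h3 : q - (q - 1) = 1 := by omega
  rw [h3] at h2
  exact hp.one_lt.ne' (Nat.dvd_one.mp h2)

theorem psl_stmt : PslStmt := by
  intro p hp F _ _ _ n hn hn2 hcard
  obtain ⟨f, _, hq⟩ := FiniteField.card F p
  have hf : 1 ≤ (f : ℕ) := f.pos
  have hq2 : 2 ≤ Fintype.card F := by
    rw [hq]
    calc 2 ≤ p := hp.two_le
      _ = p ^ 1 := (pow_one p).symm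
      _ ≤ p ^ (f : ℕ) := Nat.pow_le_pow_right hp.pos hf
  have hpq : p ∣ Fintype.card F := by
    rw [hq]
    exact dvd_pow_self p (by omega)
  have hq1 : 0 < Fintype.card F - 1 := by omega
  have : Finite (Matrix.SpecialLinearGroup (Fin n) F) :=
    inferInstanceAs (Finite {A : Matrix (Fin n) (Fin n) F // A.det = 1})
  have : Finite (Matrix.ProjectiveSpecialLinearGroup (Fin n) F) :=
    inferInstanceAs (Finite (Matrix.SpecialLinearGroup (Fin n) F ⧸
      Subgroup.center (Matrix.SpecialLinearGroup (Fin n) F)))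
  have hd := ltbpsl_not_dvd p (Fintype.card F) hp hpq (by omega) n
  rw [ltbpsl_prod (Fintype.card F) n (by omega)] at hcard
  rcases Nat.lt_or_ge n 3 with hlt | hge
  · -- `n = 2`
    have hn' : n = 2 := by omega
    subst hn'
    have h4 := hn2 rfl
    have hsum : ∑ i ∈ Finset.range 2, i = 1 := by decide
    have hprod : ∏ j ∈ Finset.range 2, (Fintype.card F ^ (j + 1) - 1) =
        (Fintype.card F ^ 2 - 1) * (Fintype.card F - 1) := by
      rw [Finset.prod_range_succ, Finset.prod_range_one]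
      simp [mul_comm]
    rw [hsum, hprod, pow_one] at hcard
    have heq : Nat.gcd 2 (Fintype.card F - 1) *
        Nat.card (Matrix.ProjectiveSpecialLinearGroup (Fin 2) F) =
        Fintype.card F * (Fintype.card F ^ 2 - 1) := by
      apply Nat.eq_of_mul_eq_mul_right hq1
      rw [mul_assoc (Fintype.card F) _ _, ← hcard]
      ring
    have hG0 : Nat.card (Matrix.ProjectiveSpecialLinearGroup (Fin 2) F) ≠ 0 := Nat.card_pos.ne'
    have hd0 : Nat.gcd 2 (Fintype.card F - 1) ≠ 0 := fun h => hd (h ▸ dvd_zero p)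
    have hsq : ¬ p ∣ Fintype.card F ^ 2 - 1 := by
      intro h
      have h2 : p ∣ Fintype.card F ^ 2 - (Fintype.card F ^ 2 - 1) :=
        Nat.dvd_sub (dvd_pow hpq (by norm_num)) h
      have h3 : Fintype.card F ^ 2 - (Fintype.card F ^ 2 - 1) = 1 := by
        have : 1 ≤ Fintype.card F ^ 2 := Nat.one_le_pow _ _ (by omega)
        omega
      rw [h3] at h2
      exact hp.one_lt.ne' (Nat.dvd_one.mp h2)
    have hsq0 : Fintype.card F ^ 2 - 1 ≠ 0 := fun h => hsq (h ▸ dvd_zero p)
    have hk : (Nat.card (Matrix.ProjectiveSpecialLinearGroup (Fin 2) F)).factorization p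
        = (f : ℕ) := by
      have h5 : (Nat.gcd 2 (Fintype.card F - 1) *
          Nat.card (Matrix.ProjectiveSpecialLinearGroup (Fin 2) F)).factorization p =
          (Fintype.card F * (Fintype.card F ^ 2 - 1)).factorization p := by rw [heq]
      rw [Nat.factorization_mul hd0 hG0, Nat.factorization_mul (by omega) hsq0, hq,
        Nat.Prime.factorization_pow hp] at h5
      simp only [Finsupp.coe_add, Pi.add_apply, Finsupp.single_eq_same] at h5
      have hd' : ¬ p ∣ Nat.gcd 2 (p ^ (f : ℕ) - 1) := by rw [← hq]; exact hd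
      rw [Nat.factorization_eq_zero_of_not_dvd hd'] at h5
      have h6 : (Fintype.card F ^ 2 - 1).factorization p = 0 :=
        Nat.factorization_eq_zero_of_not_dvd hsq
      rw [hq] at h6
      omega
    refine ⟨?_, fun hne => ?_⟩
    · rw [hk, mul_comm, pow_mul, ← hq]
      have hdpos : 0 < Nat.gcd 2 (Fintype.card F - 1) := Nat.pos_of_ne_zero hd0
      calc Nat.card (Matrix.ProjectiveSpecialLinearGroup (Fin 2) F)
          ≤ Nat.gcd 2 (Fintype.card F - 1) *
            Nat.card (Matrix.ProjectiveSpecialLinearGroup (Fin 2) F) :=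
            Nat.le_mul_of_pos_left _ hdpos
        _ = Fintype.card F * (Fintype.card F ^ 2 - 1) := heq
        _ < Fintype.card F * Fintype.card F ^ 2 := by
            apply Nat.mul_lt_mul_of_pos_left _ (by omega)
            have : 1 ≤ Fintype.card F ^ 2 := Nat.one_le_pow _ _ (by omega)
            omega
        _ = Fintype.card F ^ 3 := by ring
    · exfalso
      apply hne
      exact ⟨F, inferInstance, inferInstance, by rw [hk]; exact hq, ⟨MulEquiv.refl _⟩⟩
  · -- `n ≥ 3`
    obtain ⟨k, rfl⟩ : ∃ k, n = k + 3 := ⟨n - 3, by omega⟩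
    have hprod : ∏ j ∈ Finset.range (k + 3), (Fintype.card F ^ (j + 1) - 1) =
        (∏ j ∈ Finset.range (k + 2), (Fintype.card F ^ (j + 2) - 1)) * (Fintype.card F - 1) := by
      rw [Finset.prod_range_succ' (fun j => Fintype.card F ^ (j + 1) - 1) (k + 2)]
      simp
    rw [hprod] at hcard
    have heq : Nat.gcd (k + 3) (Fintype.card F - 1) *
        Nat.card (Matrix.ProjectiveSpecialLinearGroup (Fin (k + 3)) F) =
        Fintype.card F ^ (∑ i ∈ Finset.range (k + 3), i) *
          ∏ j ∈ Finset.range (k + 2), (Fintype.card F ^ (j + 2) - 1) := by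
      apply Nat.eq_of_mul_eq_mul_right hq1
      rw [mul_assoc, mul_comm (Nat.card _) _, hcard]
      ring
    rw [hq] at heq
    have hM : ∏ j ∈ Finset.range (k + 2), ((p ^ (f : ℕ)) ^ (j + 2) - 1) <
        (p ^ (f : ℕ)) ^ (∑ j ∈ Finset.range (k + 2), (j + 2)) := by
      rw [← Finset.prod_pow_eq_pow_sum]
      apply Finset.prod_lt_prod_of_nonempty
      · intro j _
        have : 2 ≤ (p ^ (f : ℕ)) ^ (j + 2) := by
          rw [← hq]
          calc 2 ≤ Fintype.card F := hq2
            _ = Fintype.card F ^ 1 := (pow_one _).symm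
            _ ≤ Fintype.card F ^ (j + 2) := Nat.pow_le_pow_right (by omega) (by omega)
        omega
      · intro j _
        have : 1 ≤ (p ^ (f : ℕ)) ^ (j + 2) := Nat.one_le_pow _ _ (by rw [← hq]; omega)
        omega
      · exact ⟨0, Finset.mem_range.mpr (by omega)⟩
    rw [hq] at hd
    refine goal_of_q_mul_bounds p hp f (∑ i ∈ Finset.range (k + 3), i)
      (∑ j ∈ Finset.range (k + 2), (j + 2)) _ _ hd heq hM ?_
    have hN : (∑ i ∈ Finset.range (k + 3), i) * 2 = (k + 3) * (k + 2) :=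
      Finset.sum_range_id_mul_two (k + 3)
    have hS : (∑ j ∈ Finset.range (k + 2), j) * 2 = (k + 2) * (k + 1) :=
      Finset.sum_range_id_mul_two (k + 2)
    have hE : (∑ j ∈ Finset.range (k + 2), (j + 2)) * 2 = (k + 2) * (k + 1) + 4 * (k + 2) := by
      rw [Finset.sum_add_distrib, Finset.sum_const, Finset.card_range, smul_eq_mul, add_mul, hS]
      ring
    nlinarith [hN, hE, Nat.zero_le k, Nat.zero_le (k * k)]

end Cfsg.Agent.Lib.Lead.LTB
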