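import Cfsg.Agent.Lib.Helper22.PTDefs

/-!
Project PT (S4705, helper22), piece EFDVD (helper89): the residues `k` with `z ^ k ∼ z` form a
subgroup of the units of `ZMod p`, so their number divides `p - 1`.
-/

set_option autoImplicit false

namespace Cfsg.Agent.Lib.Helper89.PT

open Cfsg Cfsg.Agent.Lib.Helper22.BFD Cfsg.Agent.Lib.Helper22.PT
open scoped ComplexConjugate

universe u

variable {G : Type u} [Group G] [Fintype G]

omit [Fintype G] in
theorem efdvd_conj_pow {a b : G} (h : IsConj a b) (n : ℕ) : IsConj (a ^ n) (b ^ n) := by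
  obtain ⟨c, hc⟩ := isConj_iff.mp h
  exact isConj_iff.mpr ⟨c, by rw [← conj_pow, hc]⟩

omit [Fintype G] in
theorem efdvd_pow_mul (p : ℕ) [Fact p.Prime] (z : G) (hz : orderOf z = p) (a b : ZMod p) :
    z ^ ((a * b).val) = (z ^ a.val) ^ b.val := by
  have h := pow_mod_orderOf z (a.val * b.val)
  rw [hz] at h
  rw [← pow_mul, ZMod.val_mul, h]

/-- the subgroup of units `u` with `z ^ u ∼ z` -/
def efdvdSub (p : ℕ) [Fact p.Prime] (z : G) (hz : orderOf z = p) : Subgroup (ZMod p)ˣ where
  carrier := {u | IsConj (z ^ (u : ZMod p).val) z}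
  one_mem' := by
    show IsConj (z ^ ((1 : (ZMod p)ˣ) : ZMod p).val) z
    rw [Units.val_one, ZMod.val_one, pow_one]
  mul_mem' := by
    intro u v hu hv
    show IsConj (z ^ ((u * v : (ZMod p)ˣ) : ZMod p).val) z
    rw [Units.val_mul, efdvd_pow_mul p z hz]
    exact (efdvd_conj_pow hu _).trans hv
  inv_mem' := by
    intro u hu
    show IsConj (z ^ ((u⁻¹ : (ZMod p)ˣ) : ZMod p).val) z
    have h1 := efdvd_conj_pow hu ((u⁻¹ : (ZMod p)ˣ) : ZMod p).val
    rw [← efdvd_pow_mul p z hz, Units.mul_inv, ZMod.val_one, pow_one] at h1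
    exact h1.symm

/-- PIECE EFDVD -/
theorem efdvd (p : ℕ) [Fact p.Prime] (z : G) (hz : orderOf z = p) : (Ef p z).card ∣ p - 1 := by
  classical
  have hp : p.Prime := Fact.out
  have hz1 : z ≠ 1 := by
    intro h
    rw [h, orderOf_one] at hz
    exact hp.one_lt.ne hz
  have hEf : Ef p z = (Finset.univ.filter (fun u : (ZMod p)ˣ => u ∈ efdvdSub p z hz)).image
      (fun u : (ZMod p)ˣ => (u : ZMod p)) := by
    ext k
    unfold Ef
    rw [Finset.mem_filter, Finset.mem_image]
    constructor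
    · rintro ⟨-, hk⟩
      have hk0 : k ≠ 0 := by
        intro h0
        rw [h0, ZMod.val_zero, pow_zero] at hk
        exact hz1 (isConj_one_right.mp hk)
      refine ⟨Units.mk0 k hk0, ?_, rfl⟩
      rw [Finset.mem_filter]
      exact ⟨Finset.mem_univ _, hk⟩
    · rintro ⟨u, hu, rfl⟩
      rw [Finset.mem_filter] at hu
      exact ⟨Finset.mem_univ _, hu.2⟩
  have hcard : (Ef p z).card = Nat.card (efdvdSub p z hz) := by
    rw [hEf, Finset.card_image_of_injective _ (fun a b h => Units.ext h),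
      Nat.card_eq_fintype_card, Fintype.card_subtype]
  rw [hcard, ← ZMod.card_units p, ← Nat.card_eq_fintype_card]
  exact Subgroup.card_subgroup_dvd_card _

end Cfsg.Agent.Lib.Helper89.PT
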