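import Cfsg.Agent.Lib.Helper22.PTDefs
import Cfsg.Agent.Lib.Helper4.Eigen
import Cfsg.Agent.Lib.Helper80.Schur

/-!
Project PT (S4705, helper22), piece MIXB (helper89): the strict bound `‖ζ (τ x)‖ < p - 3` for an
involution `τ` commuting with a non-central `p`-regular element `x` of odd order.
-/

set_option autoImplicit false

namespace Cfsg.Agent.Lib.Helper89.PT

open Cfsg Cfsg.Agent.Lib.Helper22.BFD Cfsg.Agent.Lib.Helper22.PT
open scoped ComplexConjugate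

universe u

/-- The counting core: signs `ε i`, unit complex numbers `ξ i`, with `∑ ε = -1`, `N - 2` indices,
vanishing power sums `∑ ξ ^ j` for `0 < j < t` and all `ξ i ^ t` equal, `t ≥ 3`, `N > 5`. -/
theorem mixb_count {ι : Type} [Fintype ι] (ε ξ : ι → ℂ) (N t : ℕ)
    (hε : ∀ i, ε i = 1 ∨ ε i = -1) (hξ : ∀ i, ‖ξ i‖ = 1)
    (hcard : (Fintype.card ι : ℂ) = (N : ℂ) - 2) (hN : 5 < N)
    (hsumε : ∑ i, ε i = -1) (ht : 3 ≤ t)
    (hzero : ∀ j, 0 < j → j < t → ∑ i, ξ i ^ j = 0)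
    (hscal : ∃ c : ℂ, ∀ i, ξ i ^ t = c) :
    ‖∑ i, ε i * ξ i‖ < (N : ℝ) - 3 := by
  classical
  obtain ⟨P, hP⟩ : ∃ P : Finset ι, P = Finset.univ.filter (fun i => ε i = 1) := ⟨_, rfl⟩
  obtain ⟨Q, hQ⟩ : ∃ Q : Finset ι, Q = Finset.univ.filter (fun i => ¬ ε i = 1) := ⟨_, rfl⟩
  have hεP : ∀ i ∈ P, ε i = 1 := by
    intro i hi
    rw [hP] at hi
    exact (Finset.mem_filter.mp hi).2
  have hεQ : ∀ i ∈ Q, ε i = -1 := by
    intro i hi
    rw [hQ] at hi
    exact (hε i).resolve_left (Finset.mem_filter.mp hi).2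
  have hsplit : ∀ f : ι → ℂ, ∑ i, f i = ∑ i ∈ P, f i + ∑ i ∈ Q, f i := by
    intro f
    rw [hP, hQ]
    exact (Finset.sum_filter_add_sum_filter_not Finset.univ (fun i => ε i = 1) f).symm
  -- cardinalities
  have hc1 : (P.card : ℂ) + (Q.card : ℂ) = (N : ℂ) - 2 := by
    rw [← hcard]
    have h := hsplit (fun _ => (1 : ℂ))
    simp only [Finset.sum_const, Finset.card_univ, nsmul_eq_mul, mul_one] at h
    exact h.symm
  have hc2 : (P.card : ℂ) - (Q.card : ℂ) = -1 := by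
    have hPs : ∑ i ∈ P, ε i = (P.card : ℂ) := by
      rw [Finset.sum_congr rfl hεP, Finset.sum_const, nsmul_eq_mul, mul_one]
    have hQs : ∑ i ∈ Q, ε i = -(Q.card : ℂ) := by
      rw [Finset.sum_congr rfl hεQ, Finset.sum_const, nsmul_eq_mul, mul_neg, mul_one]
    rw [← hsumε, hsplit ε, hPs, hQs]
    ring
  have hP2 : 2 * (P.card : ℝ) = (N : ℝ) - 3 := by
    have h : ((2 * (P.card : ℝ) : ℝ) : ℂ) = (((N : ℝ) - 3 : ℝ) : ℂ) := by
      push_cast
      linear_combination hc1 + hc2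
    exact Complex.ofReal_injective h
  have hQ2 : 2 * (Q.card : ℝ) = (N : ℝ) - 1 := by
    have h : ((2 * (Q.card : ℝ) : ℝ) : ℂ) = (((N : ℝ) - 1 : ℝ) : ℂ) := by
      push_cast
      linear_combination hc1 - hc2
    exact Complex.ofReal_injective h
  have hN' : (5 : ℝ) < (N : ℝ) := by exact_mod_cast hN
  -- the sum of the `ξ`
  have hz1 : ∑ i ∈ P, ξ i + ∑ i ∈ Q, ξ i = 0 := by
    rw [← hsplit ξ]
    have h := hzero 1 one_pos (by omega)
    simpa using h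
  have hPsum : ∑ i ∈ P, ε i * ξ i = ∑ i ∈ P, ξ i :=
    Finset.sum_congr rfl (fun i hi => by rw [hεP i hi, one_mul])
  have hQsum : ∑ i ∈ Q, ε i * ξ i = -∑ i ∈ Q, ξ i := by
    rw [← Finset.sum_neg_distrib]
    exact Finset.sum_congr rfl (fun i hi => by rw [hεQ i hi, neg_one_mul])
  have hval : ∑ i, ε i * ξ i = 2 * ∑ i ∈ P, ξ i := by
    rw [hsplit (fun i => ε i * ξ i), hPsum, hQsum]
    linear_combination -hz1
  have hnormP : ‖∑ i ∈ P, ξ i‖ ≤ (P.card : ℝ) := by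
    calc ‖∑ i ∈ P, ξ i‖ ≤ ∑ i ∈ P, ‖ξ i‖ := norm_sum_le _ _
      _ = (P.card : ℝ) := by simp [hξ]
  by_contra hcon
  rw [not_lt, hval, norm_mul] at hcon
  have h2n : ‖(2 : ℂ)‖ = 2 := by simp
  rw [h2n] at hcon
  have hEq : ‖∑ i ∈ P, ξ i‖ = (P.card : ℝ) := by linarith
  -- all `ξ i`, `i ∈ P`, are equal
  have hallP : ∀ i ∈ P, ∀ j ∈ P, ξ i = ξ j := by
    intro i hi j hj
    have hsum : ‖∑ k : ↥P, ξ k‖ = (Fintype.card ↥P : ℝ) := by
      rw [Finset.sum_coe_sort P ξ, Fintype.card_coe]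
      exact hEq
    exact Cfsg.Agent.Lib.Helper4.eq_of_norm_sum_eq_card (ι := ↥P) (fun k => ξ k)
      (fun k => hξ k) hsum ⟨i, hi⟩ ⟨j, hj⟩
  have hPpos : 0 < P.card := by
    have h' : (0 : ℝ) < (P.card : ℝ) := by linarith
    exact_mod_cast h'
  obtain ⟨i₀, hi₀⟩ := Finset.card_pos.mp hPpos
  obtain ⟨y, hy⟩ : ∃ y : ℂ, y = ξ i₀ := ⟨_, rfl⟩
  have hy0 : y ≠ 0 := by
    intro h0
    have h := hξ i₀
    rw [← hy, h0, norm_zero] at h
    exact zero_ne_one h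
  have hPξ : ∀ i ∈ P, ξ i = y := fun i hi => by rw [hy]; exact hallP i hi i₀ hi₀
  obtain ⟨c, hc⟩ := hscal
  have hyt : y ^ t = c := by rw [hy, hc]
  have hηt : ∀ i, (ξ i / y) ^ t = 1 := by
    intro i
    rw [div_pow, hc i, hyt]
    exact div_self (by rw [← hyt]; exact pow_ne_zero _ hy0)
  have hQj : ∀ j, 0 < j → j < t → ∑ i ∈ Q, (ξ i / y) ^ j = -(P.card : ℂ) := by
    intro j hj0 hjt
    have h1 := hzero j hj0 hjt
    have hPj : ∑ i ∈ P, ξ i ^ j = (P.card : ℂ) * y ^ j := by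
      have h : ∀ i ∈ P, ξ i ^ j = y ^ j := fun i hi => by rw [hPξ i hi]
      rw [Finset.sum_congr rfl h, Finset.sum_const, nsmul_eq_mul]
    have hQ' : ∑ i ∈ Q, ξ i ^ j = -((P.card : ℂ) * y ^ j) := by
      rw [hsplit (fun i => ξ i ^ j), hPj] at h1
      linear_combination h1
    have hne : y ^ j ≠ 0 := pow_ne_zero _ hy0
    calc ∑ i ∈ Q, (ξ i / y) ^ j = (∑ i ∈ Q, ξ i ^ j) / y ^ j := by
          rw [Finset.sum_div]
          exact Finset.sum_congr rfl (fun i _ => div_pow _ _ _)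
      _ = -(P.card : ℂ) := by
          rw [hQ', neg_div, mul_div_assoc, div_self hne, mul_one]
  obtain ⟨t', rfl⟩ : ∃ t', t = t' + 1 := ⟨t - 1, by omega⟩
  have hT : ∑ j ∈ Finset.range (t' + 1), ∑ i ∈ Q, (ξ i / y) ^ j
      = (Q.card : ℂ) - (t' : ℂ) * (P.card : ℂ) := by
    rw [Finset.sum_range_succ']
    have h : ∀ j ∈ Finset.range t', ∑ i ∈ Q, (ξ i / y) ^ (j + 1) = -(P.card : ℂ) := by
      intro j hj
      have hj' := Finset.mem_range.mp hj
      exact hQj (j + 1) (Nat.succ_pos j) (by omega)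
    rw [Finset.sum_congr rfl h]
    simp only [Finset.sum_const, Finset.card_range, pow_zero, nsmul_eq_mul, mul_one]
    ring
  have hG : ∀ i, 0 ≤ (∑ j ∈ Finset.range (t' + 1), (ξ i / y) ^ j).re := by
    intro i
    by_cases h1 : ξ i / y = 1
    · rw [h1]
      simp only [one_pow, Finset.sum_const, Finset.card_range, nsmul_eq_mul, mul_one]
      have h : ((t' + 1 : ℕ) : ℂ).re = ((t' + 1 : ℕ) : ℝ) := Complex.natCast_re _
      rw [h]
      exact Nat.cast_nonneg _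
    · have h2 := mul_geom_sum (ξ i / y) (t' + 1)
      rw [hηt i, sub_self] at h2
      rcases mul_eq_zero.mp h2 with h3 | h3
      · exact absurd (sub_eq_zero.mp h3) h1
      · rw [h3]
        simp
  have hTre : 0 ≤ (∑ j ∈ Finset.range (t' + 1), ∑ i ∈ Q, (ξ i / y) ^ j).re := by
    rw [Finset.sum_comm, Complex.re_sum]
    exact Finset.sum_nonneg (fun i _ => hG i)
  rw [hT] at hTre
  have hre : ((Q.card : ℂ) - (t' : ℂ) * (P.card : ℂ)).re
      = (Q.card : ℝ) - (t' : ℝ) * (P.card : ℝ) := by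
    simp
  rw [hre] at hTre
  have ht' : (2 : ℝ) ≤ (t' : ℝ) := by exact_mod_cast (by omega : 2 ≤ t')
  have hPnn : (0 : ℝ) ≤ (P.card : ℝ) := Nat.cast_nonneg _
  have hmul : 2 * (P.card : ℝ) ≤ (t' : ℝ) * (P.card : ℝ) :=
    mul_le_mul_of_nonneg_right ht' hPnn
  linarith

variable {G : Type u} [Group G] [Fintype G]

/-- PIECE MIXB -/
theorem mixb (p : ℕ) [Fact p.Prime] (z : G) (ζ : G → ℂ) (h : Hyp G p z ζ)
    (hinv : ∀ τ : G, orderOf τ = 2 → ζ τ = -1)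
    (hoddz : ∀ g : G, Odd (orderOf g) → ¬ p ∣ orderOf g → g ∉ Subgroup.center G → ζ g = 0)
    (τ x : G) (hτ : orderOf τ = 2) (hx : Odd (orderOf x)) (hreg : ¬ p ∣ orderOf x)
    (hcomm : τ * x = x * τ) (hnc : x ∉ Subgroup.center G) :
    ‖ζ (τ * x)‖ < (p : ℝ) - 3 := by
  classical
  obtain ⟨n, ρ, hirr, hχ⟩ := h.irr
  have hirr' : ρ.IsIrreducible := hirr
  obtain ⟨ι, hι, hd, v, μ, h1, h2, h3, -⟩ :=
    Cfsg.Agent.Lib.Helper4.exists_eigenbasis_rep ρ (τ * x)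
  obtain ⟨m, hm⟩ : ∃ m, m = orderOf x := ⟨_, rfl⟩
  have hmodd : Odd m := by rw [hm]; exact hx
  have hxm : x ^ m = 1 := by rw [hm]; exact pow_orderOf_eq_one x
  have hτ2 : τ ^ 2 = 1 := by rw [← hτ]; exact pow_orderOf_eq_one τ
  have hc : Commute τ x := hcomm
  have hτm : τ ^ m = τ := by
    obtain ⟨k, hk⟩ := hmodd
    rw [hk, pow_succ, pow_mul, hτ2, one_pow, one_mul]
  have hτm1 : τ ^ (m + 1) = 1 := by rw [pow_succ, hτm, ← pow_two, hτ2]
  have hxm1 : x ^ (m + 1) = x := by rw [pow_succ, hxm, one_mul]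
  have hgpow : ∀ k, (τ * x) ^ k = τ ^ k * x ^ k := fun k => hc.mul_pow k
  have hgm : (τ * x) ^ m = τ := by rw [hgpow, hτm, hxm, mul_one]
  have hgx : ∀ j, (τ * x) ^ ((m + 1) * j) = x ^ j := by
    intro j
    rw [hgpow, pow_mul, pow_mul, hτm1, one_pow, one_mul, hxm1]
  have hg2m : (τ * x) ^ (2 * m) = 1 := by
    rw [hgpow, pow_mul, hτ2, one_pow, one_mul, mul_comm, pow_mul, hxm, one_pow]
  -- eigen-relations
  have hE1 : ∀ k i, ρ ((τ * x) ^ k) (v i) = μ i ^ k • v i := by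
    intro k i
    induction k with
    | zero => simp
    | succ k ih =>
      rw [pow_succ, map_mul, Module.End.mul_apply, h1, map_smul, ih, smul_smul, pow_succ,
        mul_comm]
  have hE2 : ∀ k, ζ ((τ * x) ^ k) = ∑ i, μ i ^ k := by
    intro k
    rw [← hχ]
    exact Cfsg.Agent.Lib.Helper4.trace_eq_sum_of_eigenbasis v (ρ ((τ * x) ^ k))
      (fun i => μ i ^ k) (fun i => hE1 k i)
  have hμ2m : ∀ i, μ i ^ (2 * m) = 1 := by
    intro i
    obtain ⟨c, hc'⟩ := orderOf_dvd_of_pow_eq_one hg2m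
    rw [hc', pow_mul, h2 i, one_pow]
  -- the least positive `t` with `x ^ t` central
  have hex : ∃ j, 0 < j ∧ x ^ j ∈ Subgroup.center G :=
    ⟨m, by rw [hm]; exact orderOf_pos x, by rw [hxm]; exact Subgroup.one_mem _⟩
  obtain ⟨t, ht0, htZ, htmin⟩ : ∃ t, 0 < t ∧ x ^ t ∈ Subgroup.center G ∧
      ∀ j, 0 < j → j < t → x ^ j ∉ Subgroup.center G :=
    ⟨Nat.find hex, (Nat.find_spec hex).1, (Nat.find_spec hex).2,
      fun j hj0 hjt hjZ => Nat.find_min hex hjt ⟨hj0, hjZ⟩⟩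
  have ht3 : 3 ≤ t := by
    by_contra hlt
    have h12 : t = 1 ∨ t = 2 := by omega
    rcases h12 with rfl | rfl
    · rw [pow_one] at htZ
      exact hnc htZ
    · obtain ⟨k, hk⟩ := hmodd
      have hxk : (x ^ 2) ^ (k + 1) = x := by
        rw [← pow_mul, show 2 * (k + 1) = m + 1 by omega, hxm1]
      apply hnc
      rw [← hxk]
      exact Subgroup.pow_mem _ htZ _
  have hzero : ∀ j, 0 < j → j < t → ∑ i, (μ i ^ (m + 1)) ^ j = 0 := by
    intro j hj0 hjt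
    have hnz := htmin j hj0 hjt
    have hodd : Odd (orderOf (x ^ j)) := Odd.of_dvd_nat hx (orderOf_pow_dvd j)
    have hreg' : ¬ p ∣ orderOf (x ^ j) := fun hdv => hreg (dvd_trans hdv (orderOf_pow_dvd j))
    have h0 := hoddz (x ^ j) hodd hreg' hnz
    rw [← hgx j, hE2] at h0
    rw [← h0]
    exact Finset.sum_congr rfl (fun i _ => (pow_mul _ _ _).symm)
  have hscal : ∃ c : ℂ, ∀ i, (μ i ^ (m + 1)) ^ t = c := by
    obtain ⟨c, hc'⟩ := Cfsg.Agent.Lib.Helper80.central_scalar ρ (x ^ t) htZ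
    refine ⟨c, fun i => ?_⟩
    have h5 := hE1 ((m + 1) * t) i
    rw [hgx t, hc'] at h5
    simp only [LinearMap.smul_apply, LinearMap.id_coe, id_eq] at h5
    have h6 : (c - μ i ^ ((m + 1) * t)) • v i = 0 := by rw [sub_smul, h5, sub_self]
    rcases smul_eq_zero.mp h6 with h7 | h7
    · rw [← pow_mul]
      exact (sub_eq_zero.mp h7).symm
    · exact absurd h7 (v.ne_zero i)
  have hε : ∀ i, μ i ^ m = 1 ∨ μ i ^ m = -1 := by
    intro i
    have h4 := hμ2m i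
    rw [pow_mul', pow_two] at h4
    exact mul_self_eq_one_iff.mp h4
  have hξ : ∀ i, ‖μ i ^ (m + 1)‖ = 1 := by
    intro i
    rw [norm_pow, h3 i, one_pow]
  have hcard : (Fintype.card ι : ℂ) = (p : ℂ) - 2 := by
    have h4 := hE2 0
    simp only [pow_zero, Finset.sum_const, Finset.card_univ, nsmul_eq_mul, mul_one] at h4
    rw [← h4, h.deg]
  have hsumε : ∑ i, μ i ^ m = -1 := by
    rw [← hE2 m, hgm]
    exact hinv τ hτ
  have hfin := mixb_count (fun i => μ i ^ m) (fun i => μ i ^ (m + 1)) p t hε hξ hcard h.p5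
    hsumε ht3 hzero hscal
  have hζ : ζ (τ * x) = ∑ i, μ i ^ m * μ i ^ (m + 1) := by
    have h4 := hE2 1
    rw [pow_one] at h4
    rw [h4]
    refine Finset.sum_congr rfl (fun i _ => ?_)
    rw [pow_one, ← pow_add, show m + (m + 1) = 2 * m + 1 by ring, pow_succ, hμ2m i, one_mul]
  rw [hζ]
  exact hfin

end Cfsg.Agent.Lib.Helper89.PT
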