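import Mathlib
import Cfsg.Agent.Lib.Helper72.S3Defs

set_option autoImplicit false

/-!
# Piece NM of S4305 (helper89, for helper72)

If the norm of `f` vanishes on `V`, then `f` centralises every solvable group of automorphisms
of `V`, of order prime to `6` and to `|V|`, that it normalises.
-/

namespace Cfsg.Agent.Lib.Helper89.S3F

open Cfsg.Agent.Lib.Helper72.S3F

universe u

section

variable {V : Type u} [CommGroup V]

/-- the norm map `v ↦ ∏_{j<r} z^j v` -/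
def nmNu (z : MulAut V) (r : ℕ) : V →* V :=
  ∏ j ∈ Finset.range r, ((z ^ j : MulAut V).toMonoidHom)

theorem nmNu_apply (z : MulAut V) (r : ℕ) (v : V) :
    nmNu z r v = ∏ j ∈ Finset.range r, (z ^ j) v := by
  unfold nmNu
  rw [MonoidHom.finsetProd_apply]
  rfl

theorem nmNu_comm {z g : MulAut V} (h : g * z = z * g) (r : ℕ) (v : V) :
    nmNu z r (g v) = g (nmNu z r v) := by
  rw [nmNu_apply, nmNu_apply, map_prod]
  apply Finset.prod_congr rfl
  intro j _
  have hj : g * z ^ j = z ^ j * g := (Commute.pow_right (show Commute g z from h) j).eq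
  have h1 := congrArg (fun e : MulAut V => e v) hj
  exact h1.symm

theorem nmNu_z {z : MulAut V} {r : ℕ} (hz : z ^ r = 1) (v : V) :
    nmNu z r (z v) = nmNu z r v := by
  rw [nmNu_apply, nmNu_apply]
  have h1 : ∀ j, (z ^ j) (z v) = (z ^ (j + 1)) v := fun j => by
    rw [pow_succ]; rfl
  simp_rw [h1]
  have h2 := Finset.prod_range_succ' (fun j => (z ^ j) v) r
  have h3 := Finset.prod_range_succ (fun j => (z ^ j) v) r
  rw [h3] at h2
  have e0 : (z ^ 0) v = v := by rw [pow_zero]; rfl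
  have er : (z ^ r) v = v := by rw [hz]; rfl
  rw [e0, er] at h2
  exact (mul_right_cancel h2).symm

theorem nmNu_fixed {z : MulAut V} (r : ℕ) {w : V} (h : z w = w) : nmNu z r w = w ^ r := by
  rw [nmNu_apply]
  have h1 : ∀ j, (z ^ j) w = w := by
    intro j
    induction j with
    | zero => rw [pow_zero]; rfl
    | succ k ih =>
      rw [pow_succ]
      show (z ^ k) (z w) = w
      rw [h, ih]
  simp only [h1, Finset.prod_const, Finset.card_range]

end

theorem nm (ha : NMAStmt.{u}) (h3 : Reg3Stmt.{u}) (he : EsStmt.{u}) : NMStmt.{u} := by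
  intro V _ _ H f hsolv hf3 hfH hcop6 hcopV hnorm x hx
  by_contra hne
  have hfinA : Finite (MulAut V) :=
    Finite.of_injective (fun e : MulAut V => (e : V → V)) DFunLike.coe_injective
  have hab : ∀ R : Subgroup (MulAut V), R ≤ H → (∀ x ∈ R, ∀ y ∈ R, x * y = y * x) →
      (∀ x ∈ R, f * x * f⁻¹ ∈ R) → ∀ u ∈ R, f * u * f⁻¹ = u := by
    intro R hRH hcomm hfR
    exact h3 V f R hf3 hnorm hcomm hfR
      (Nat.Coprime.coprime_dvd_left (Subgroup.card_dvd_of_le hRH) hcopV)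
  obtain ⟨r, y, hr, hrH, hyH, hyr, hz1, hzr, hzy, hzy1, hfz, hprod⟩ :=
    ha (MulAut V) H f inferInstance hsolv hf3 hfH hcop6 hab ⟨x, hx, hne⟩
  -- arithmetic of `r`
  have hr3 : 3 ≤ r := by
    have h2 := hr.two_le
    have hne2 : r ≠ 2 := by
      intro h
      rw [h] at hrH
      have h6 : (2 : ℕ) ∣ Nat.gcd (Nat.card H) 6 := Nat.dvd_gcd hrH (by norm_num)
      rw [hcop6.gcd_eq_one] at h6
      norm_num at h6
    omega
  have hrV : r.Coprime (Nat.card V) := Nat.Coprime.coprime_dvd_left hrH hcopV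
  -- the commutator and the kernel of its norm
  obtain ⟨y1, hy1⟩ : ∃ y1 : MulAut V, y1 = f * y * f⁻¹ := ⟨_, rfl⟩
  obtain ⟨z, hzdef⟩ : ∃ z : MulAut V, z = y * y1 * y⁻¹ * y1⁻¹ := ⟨_, rfl⟩
  rw [← hy1] at hz1 hzr hzy hzy1 hfz hprod
  rw [← hzdef] at hz1 hzr hzy hzy1 hfz
  obtain ⟨W, hW⟩ : ∃ W : Subgroup V, W = (nmNu z r).ker := ⟨_, rfl⟩
  have hWmem : ∀ w : V, w ∈ W ↔ nmNu z r w = 1 := fun w => by
    rw [hW, MonoidHom.mem_ker]
  have hinv : ∀ g : MulAut V, g * z = z * g → ∀ w ∈ W, g w ∈ W := by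
    intro g hg w hw
    rw [hWmem] at hw ⊢
    rw [nmNu_comm hg, hw, map_one]
  have hcy : y * z = z * y := hzy.symm
  have hcy1 : y1 * z = z * y1 := hzy1.symm
  have hcyi : y⁻¹ * z = z * y⁻¹ := (Commute.inv_left (show Commute y z from hcy)).eq
  have hcy1i : y1⁻¹ * z = z * y1⁻¹ := (Commute.inv_left (show Commute y1 z from hcy1)).eq
  have hcf : f * z = z * f := mul_inv_eq_iff_eq_mul.mp hfz
  have hWz : ∀ w ∈ W, z w = w → w = 1 := by
    intro w hw hzw
    rw [hWmem, nmNu_fixed r hzw] at hw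
    have h1 : orderOf w ∣ r := orderOf_dvd_of_pow_eq_one hw
    have h2 : orderOf w ∣ Nat.card V := orderOf_dvd_natCard w
    have h3' : orderOf w ∣ Nat.gcd r (Nat.card V) := Nat.dvd_gcd h1 h2
    rw [hrV.gcd_eq_one] at h3'
    exact orderOf_eq_one_iff.mp (Nat.dvd_one.mp h3')
  have hWne : W ≠ ⊥ := by
    intro hbot
    apply hz1
    apply MulEquiv.ext
    intro v
    have hu : v⁻¹ * z v ∈ W := by
      rw [hWmem, map_mul, map_inv, nmNu_z hzr, inv_mul_cancel]
    rw [hbot, Subgroup.mem_bot] at hu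
    show z v = v
    exact (inv_mul_eq_one.mp hu).symm
  have hzE : y * y1 * y⁻¹ * y1⁻¹ = z := hzdef.symm
  obtain ⟨hEa, hEb⟩ := he V y y1 r W hr hr3 hrV hyr (by rw [hzE]; exact hzr)
    (by rw [hzE]; exact hzy) (by rw [hzE]; exact hzy1)
    (hinv y hcy) (hinv y1 hcy1) (hinv y⁻¹ hcyi) (hinv y1⁻¹ hcy1i)
    (by rw [hzE]; exact hWz)
  obtain ⟨v, hvW, hv1, hyv⟩ := hEb hWne
  apply hv1
  have hfv : f v ∈ W := hinv f hcf v hvW
  have hffv : f (f v) ∈ W := hinv f hcf _ hfv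
  refine hEa v hvW (f v) hfv (f (f v)) hffv hyv ?_ ?_ (hnorm v)
  · rw [hy1]
    show f (y (f⁻¹ (f v))) = f v
    rw [MulAut.inv_apply_self, hyv]
  · have e2 : f ^ 2 * y * (f ^ 2)⁻¹ = y1⁻¹ * y⁻¹ := by
      rw [← mul_inv_rev]
      exact eq_inv_of_mul_eq_one_right hprod
    rw [← e2]
    have e : f (f v) = (f ^ 2) v := by rw [pow_two]; rfl
    rw [e]
    show (f ^ 2) (y ((f ^ 2)⁻¹ ((f ^ 2) v))) = (f ^ 2) v
    rw [MulAut.inv_apply_self, hyv]

end Cfsg.Agent.Lib.Helper89.S3F
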