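import Cfsg.Agent.Lib.Helper10.TH0

/-!
# Job piece TH-B5 for S1632: the one-dimensional theta inversion with shift and phase
-/

set_option autoImplicit false

namespace Cfsg.Agent.Lib.Helper89.THB5

open Matrix Complex UpperHalfPlane ModularForm MatrixGroups Cfsg.Agent.Lib.Helper10.TH
open scoped Manifold Real

/-- `(t d)^(1/2) = t^(1/2) √d` for `d > 0`. -/
theorem cpow_half_mul (t : ℂ) (ht : t ≠ 0) (d : ℝ) (hd : 0 < d) :
    (t * d) ^ (1 / 2 : ℂ) = t ^ (1 / 2 : ℂ) * ((Real.sqrt d : ℝ) : ℂ) := by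
  have hd0 : (d : ℂ) ≠ 0 := ofReal_ne_zero.2 hd.ne'
  rw [cpow_def_of_ne_zero (mul_ne_zero ht hd0), cpow_def_of_ne_zero ht, log_mul_ofReal d hd t ht,
    Real.sqrt_eq_rpow, ofReal_cpow hd.le, cpow_def_of_ne_zero hd0, ← Complex.exp_add,
    ofReal_log hd.le]
  congr 1
  push_cast
  ring

/-- B5 -/
theorem inv_one (t : ℂ) (ht : 0 < t.re) (d : ℝ) (hd : 0 < d) (s z : ℝ) :
    ∑' k : ℤ, cexp (-(π : ℂ) * t * d * ((k : ℂ) + s) ^ 2 + 2 * π * Complex.I * (k : ℂ) * z) =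
      (((Real.sqrt d)⁻¹ : ℝ) : ℂ) * (t ^ (1 / 2 : ℂ))⁻¹ *
        ∑' k : ℤ, cexp (-(π : ℂ) / (t * d) * ((k : ℂ) - z) ^ 2 +
          2 * π * Complex.I * s * ((k : ℂ) - z)) := by
  have ht0 : t ≠ 0 := by
    rintro rfl
    simp at ht
  have hd0 : (d : ℂ) ≠ 0 := ofReal_ne_zero.2 hd.ne'
  have htd : t * (d : ℂ) ≠ 0 := mul_ne_zero ht0 hd0
  have ha : 0 < (t * (d : ℂ)).re := by
    rw [mul_comm, re_ofReal_mul]
    exact mul_pos hd ht
  have hmain := Complex.tsum_exp_neg_quadratic ha (Complex.I * z - t * d * s)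
  have hL : ∀ k : ℤ,
      cexp (-(π : ℂ) * t * d * ((k : ℂ) + s) ^ 2 + 2 * π * Complex.I * (k : ℂ) * z) =
      cexp (-(π : ℂ) * (t * d) * (s : ℂ) ^ 2) *
        cexp (-π * (t * d) * (k : ℂ) ^ 2 + 2 * π * (Complex.I * z - t * d * s) * k) := by
    intro k
    rw [← Complex.exp_add]
    congr 1
    ring
  have hR : ∀ k : ℤ,
      cexp (-π / (t * d) * ((k : ℂ) + Complex.I * (Complex.I * z - t * d * s)) ^ 2) =
      cexp ((π : ℂ) * (t * d) * (s : ℂ) ^ 2) *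
        cexp (-(π : ℂ) / (t * d) * ((k : ℂ) - z) ^ 2 +
          2 * π * Complex.I * s * ((k : ℂ) - z)) := by
    intro k
    rw [← Complex.exp_add]
    congr 1
    have h : t * (d : ℂ) * (t * (d : ℂ))⁻¹ = 1 := mul_inv_cancel₀ htd
    rw [div_eq_mul_inv]
    have e1 : (k : ℂ) + Complex.I * (Complex.I * z - t * d * s) =
        ((k : ℂ) - z) - Complex.I * (t * d * s) := by
      linear_combination (z : ℂ) * Complex.I_sq
    rw [e1]
    linear_combination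
      (2 * (π : ℂ) * Complex.I * s * ((k : ℂ) - z) - π * (t * d) * (s : ℂ) ^ 2 * Complex.I ^ 2) * h
        - (π : ℂ) * (t * d) * (s : ℂ) ^ 2 * Complex.I_sq
  have hcancel : cexp (-(π : ℂ) * (t * d) * (s : ℂ) ^ 2) * cexp ((π : ℂ) * (t * d) * (s : ℂ) ^ 2)
      = 1 := by
    rw [← Complex.exp_add]
    have : -(π : ℂ) * (t * d) * (s : ℂ) ^ 2 + (π : ℂ) * (t * d) * (s : ℂ) ^ 2 = 0 := by ring
    rw [this, Complex.exp_zero]
  have hconst : 1 / (t * (d : ℂ)) ^ (1 / 2 : ℂ) =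
      (((Real.sqrt d)⁻¹ : ℝ) : ℂ) * (t ^ (1 / 2 : ℂ))⁻¹ := by
    rw [cpow_half_mul t ht0 d hd, one_div, mul_inv, mul_comm]
    push_cast
    rfl
  calc ∑' k : ℤ, cexp (-(π : ℂ) * t * d * ((k : ℂ) + s) ^ 2 + 2 * π * Complex.I * (k : ℂ) * z)
      = ∑' k : ℤ, cexp (-(π : ℂ) * (t * d) * (s : ℂ) ^ 2) *
          cexp (-π * (t * d) * (k : ℂ) ^ 2 + 2 * π * (Complex.I * z - t * d * s) * k) :=
        tsum_congr hL
    _ = cexp (-(π : ℂ) * (t * d) * (s : ℂ) ^ 2) *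
          ∑' k : ℤ, cexp (-π * (t * d) * (k : ℂ) ^ 2 + 2 * π * (Complex.I * z - t * d * s) * k) :=
        tsum_mul_left
    _ = cexp (-(π : ℂ) * (t * d) * (s : ℂ) ^ 2) * (1 / (t * (d : ℂ)) ^ (1 / 2 : ℂ) *
          ∑' k : ℤ, cexp (-π / (t * d) * ((k : ℂ) + Complex.I * (Complex.I * z - t * d * s)) ^ 2)) := by
        rw [hmain]
    _ = cexp (-(π : ℂ) * (t * d) * (s : ℂ) ^ 2) * (1 / (t * (d : ℂ)) ^ (1 / 2 : ℂ) *
          ∑' k : ℤ, cexp ((π : ℂ) * (t * d) * (s : ℂ) ^ 2) *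
            cexp (-(π : ℂ) / (t * d) * ((k : ℂ) - z) ^ 2 +
              2 * π * Complex.I * s * ((k : ℂ) - z))) := by
        rw [tsum_congr hR]
    _ = cexp (-(π : ℂ) * (t * d) * (s : ℂ) ^ 2) * (1 / (t * (d : ℂ)) ^ (1 / 2 : ℂ) *
          (cexp ((π : ℂ) * (t * d) * (s : ℂ) ^ 2) *
            ∑' k : ℤ, cexp (-(π : ℂ) / (t * d) * ((k : ℂ) - z) ^ 2 +
              2 * π * Complex.I * s * ((k : ℂ) - z)))) := by
        rw [tsum_mul_left]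
    _ = (cexp (-(π : ℂ) * (t * d) * (s : ℂ) ^ 2) * cexp ((π : ℂ) * (t * d) * (s : ℂ) ^ 2)) *
          (1 / (t * (d : ℂ)) ^ (1 / 2 : ℂ) *
            ∑' k : ℤ, cexp (-(π : ℂ) / (t * d) * ((k : ℂ) - z) ^ 2 +
              2 * π * Complex.I * s * ((k : ℂ) - z))) := by
        ring
    _ = (((Real.sqrt d)⁻¹ : ℝ) : ℂ) * (t ^ (1 / 2 : ℂ))⁻¹ *
        ∑' k : ℤ, cexp (-(π : ℂ) / (t * d) * ((k : ℂ) - z) ^ 2 +
          2 * π * Complex.I * s * ((k : ℂ) - z)) := by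
        rw [hcancel, one_mul, hconst]

end Cfsg.Agent.Lib.Helper89.THB5
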