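import Mathlib
import Cfsg.Agent.Lib.Helper98.U84Defs

set_option autoImplicit false

/-!
# U84-SQNORM (helper89): a unitary matrix with scalar square `z • 1` has `z ^ (q + 1) = 1`
-/

namespace Cfsg.Agent.Lib.Helper98.U84

open Matrix Polynomial

theorem norm_of_sq_scalar {F : Type*} [Field F] [Fintype F] {q n : ℕ}
    (hF : Fintype.card F = q ^ 2) (hn : 1 ≤ n) (M : Matrix (Fin n) (Fin n) F)
    (hpres : ∀ u w, Cfsg.hermForm n F q (M *ᵥ u) (M *ᵥ w) = Cfsg.hermForm n F q u w) (z : F)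
    (hM : M * M = z • (1 : Matrix (Fin n) (Fin n) F)) : z ^ (q + 1) = 1 := by
  classical
  have _ := hF
  set e : Fin n → F := Pi.single (⟨0, hn⟩ : Fin n) 1 with he
  have hee : Cfsg.hermForm n F q e e = 1 := by
    unfold Cfsg.hermForm
    rw [Finset.sum_eq_single (⟨0, hn⟩ : Fin n)]
    · simp [he]
    · intro b _ hb
      simp [he, Pi.single_eq_of_ne hb]
    · intro h
      exact absurd (Finset.mem_univ _) h
  have h1 := hpres (M *ᵥ e) (M *ᵥ e)
  rw [hpres e e, hee] at h1
  have h2 : M *ᵥ (M *ᵥ e) = z • e := by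
    rw [Matrix.mulVec_mulVec, hM, Matrix.smul_mulVec, Matrix.one_mulVec]
  rw [h2] at h1
  have h3 : Cfsg.hermForm n F q (z • e) (z • e) = z ^ (q + 1) * Cfsg.hermForm n F q e e := by
    unfold Cfsg.hermForm
    rw [Finset.mul_sum]
    apply Finset.sum_congr rfl
    intro i _
    simp only [Pi.smul_apply, smul_eq_mul]
    rw [mul_pow, pow_succ]
    ring
  rw [h3, hee, mul_one] at h1
  exact h1

end Cfsg.Agent.Lib.Helper98.U84
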