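import Mathlib
import Cfsg.Agent.Lib.Helper98.U84Defs

set_option autoImplicit false

/-!
# U84-SQRT (helper89): elements of norm one of a field with `q ^ 2` elements, `q` odd, are squares
-/

namespace Cfsg.Agent.Lib.Helper98.U84

open Matrix Polynomial

theorem exists_sqrt_of_norm_one {F : Type*} [Field F] [Fintype F] {q : ℕ}
    (hF : Fintype.card F = q ^ 2) (hq : Odd q) (z : F) (hz : z ^ (q + 1) = 1) :
    ∃ lam : F, lam ^ 2 = z := by
  classical
  have hz0 : z ≠ 0 := by
    intro h
    rw [h, zero_pow (Nat.succ_ne_zero q)] at hz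
    exact zero_ne_one hz
  have hchar : ringChar F ≠ 2 := by
    intro h2
    haveI : CharP F 2 := by rw [← h2]; exact ringChar.charP F
    have hdvd : 2 ∣ Fintype.card F := by
      have := FiniteField.even_card_of_char_two (F := F) (by rw [ringChar.eq_iff]; infer_instance)
      exact Nat.dvd_of_mod_eq_zero this
    rw [hF] at hdvd
    have : 2 ∣ q := Nat.Prime.dvd_of_dvd_pow Nat.prime_two hdvd
    exact (Nat.not_even_iff_odd.mpr hq) (even_iff_two_dvd.mpr this)
  obtain ⟨k, hk⟩ := hq
  have hsq : IsSquare z := by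
    rw [FiniteField.isSquare_iff hchar hz0, hF]
    have h1 : q ^ 2 / 2 = (q + 1) * k := by
      rw [hk]
      have : (2 * k + 1) ^ 2 = 2 * ((2 * k + 1 + 1) * k) + 1 := by ring
      rw [this]
      omega
    rw [h1, pow_mul, hz, one_pow]
  obtain ⟨lam, hlam⟩ := hsq
  exact ⟨lam, by rw [hlam, pow_two]⟩

end Cfsg.Agent.Lib.Helper98.U84
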