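import Mathlib

/-!
# UF-PERMCOMB (helper89): a counting lemma for residues permuted by `l ↦ π l`
-/

set_option autoImplicit false

namespace Cfsg.Agent.Lib.Helper89.Uf

theorem perm_comb (n r : ℕ) [Fact r.Prime] (hr2 : r ≠ 2) (a : Fin n → ℕ)
    (π : Equiv.Perm (Fin n)) (c' : ℕ) (hπ : ∀ l, (a (π l) + a l) % r = c' % r) :
    ∃ c : ℕ, ∀ j : ℕ,
      (Finset.univ.filter (fun l : Fin n => a l % r = (c + (r - 1) * j) % r)).card =
        (Finset.univ.filter (fun l : Fin n => a l % r = (c + j) % r)).card := by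
  have hr : r.Prime := Fact.out
  have hodd : Odd r := hr.odd_of_ne_two hr2
  obtain ⟨k, hk⟩ := hodd
  refine ⟨c' * (k + 1), fun j => ?_⟩
  have h1 : ((k : ZMod r) + 1) * 2 = 1 := by
    have h0 : ((k + 1) * 2 : ℕ) = r + 1 := by omega
    have h2 := congrArg (Nat.cast : ℕ → ZMod r) h0
    push_cast at h2
    rw [ZMod.natCast_self, zero_add] at h2
    exact h2
  have hr1 : ((r - 1 : ℕ) : ZMod r) = -1 := by
    rw [Nat.cast_sub hr.one_lt.le, ZMod.natCast_self]
    simp
  symm
  apply Finset.card_equiv π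
  intro l
  simp only [Finset.mem_filter, Finset.mem_univ, true_and]
  rw [← ZMod.natCast_eq_natCast_iff', ← ZMod.natCast_eq_natCast_iff']
  have h3 := (ZMod.natCast_eq_natCast_iff' _ _ _).mpr (hπ l)
  push_cast at h3 ⊢
  rw [hr1]
  constructor
  · intro h
    linear_combination h3 - h - (c' : ZMod r) * h1
  · intro h
    linear_combination h3 - h - (c' : ZMod r) * h1

end Cfsg.Agent.Lib.Helper89.Uf
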